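/-
A `q`-subgroup (`q` odd, prime to the characteristic) of `SL(2, K)` is not normalized by a
non-trivial element of `p`-power order.
-/
import Mathlib

set_option autoImplicit false

namespace Cfsg.Agent.Lib.CaseTh.SL2Trans

open Matrix

variable {K : Type*} [Field K]

/-- `SL(2, K)`. -/
abbrev SL2 (K : Type*) [Field K] := Matrix.SpecialLinearGroup (Fin 2) K

/-- trace of a `2 × 2` matrix -/
def tr2 (g : Matrix (Fin 2) (Fin 2) K) : K := g 0 0 + g 1 1

theorem det_entries (g : SL2 K) : (g : Matrix (Fin 2) (Fin 2) K) 0 0 * (g : Matrix (Fin 2) (Fin 2) K) 1 1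
    - (g : Matrix (Fin 2) (Fin 2) K) 0 1 * (g : Matrix (Fin 2) (Fin 2) K) 1 0 = 1 := by
  have := g.2
  rw [Matrix.det_fin_two] at this
  exact this

theorem coe_inv_eq (g : SL2 K) : ((g⁻¹ : SL2 K) : Matrix (Fin 2) (Fin 2) K) =
    !![(g : Matrix (Fin 2) (Fin 2) K) 1 1, -(g : Matrix (Fin 2) (Fin 2) K) 0 1;
      -(g : Matrix (Fin 2) (Fin 2) K) 1 0, (g : Matrix (Fin 2) (Fin 2) K) 0 0] := by
  rw [Matrix.SpecialLinearGroup.coe_inv, Matrix.adjugate_fin_two]

/-- Cayley–Hamilton for `SL(2)`. -/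
theorem sq_sub_tr (g : SL2 K) : (g : Matrix (Fin 2) (Fin 2) K) * g
    = tr2 (g : Matrix (Fin 2) (Fin 2) K) • (g : Matrix (Fin 2) (Fin 2) K) - 1 := by
  have hd := det_entries g
  ext i j
  fin_cases i <;> fin_cases j <;>
    simp [Matrix.mul_apply, Fin.sum_univ_two, tr2, Matrix.smul_apply, Matrix.sub_apply] <;>
    first | ring1 | linear_combination (-1 : K) * hd | linear_combination hd

theorem add_inv (g : SL2 K) : (g : Matrix (Fin 2) (Fin 2) K) + ((g⁻¹ : SL2 K) : Matrix (Fin 2) (Fin 2) K)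
    = tr2 (g : Matrix (Fin 2) (Fin 2) K) • 1 := by
  rw [coe_inv_eq]
  ext i j
  fin_cases i <;> fin_cases j <;> simp [tr2, Matrix.smul_apply] <;> ring

theorem tr2_conj (A g : SL2 K) : tr2 ((A * g * A⁻¹ : SL2 K) : Matrix (Fin 2) (Fin 2) K)
    = tr2 (g : Matrix (Fin 2) (Fin 2) K) := by
  have e : tr2 ((A * g * A⁻¹ : SL2 K) : Matrix (Fin 2) (Fin 2) K) =
      Matrix.trace ((A * g * A⁻¹ : SL2 K) : Matrix (Fin 2) (Fin 2) K) := by
    simp [tr2, Matrix.trace_fin_two]
  have e2 : tr2 (g : Matrix (Fin 2) (Fin 2) K) = Matrix.trace (g : Matrix (Fin 2) (Fin 2) K) := by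
    simp [tr2, Matrix.trace_fin_two]
  rw [e, e2, Matrix.SpecialLinearGroup.coe_mul, Matrix.SpecialLinearGroup.coe_mul,
    Matrix.trace_mul_comm, ← mul_assoc]
  have : (((A⁻¹ : SL2 K) : Matrix (Fin 2) (Fin 2) K) * (A : Matrix (Fin 2) (Fin 2) K)) = 1 := by
    rw [← Matrix.SpecialLinearGroup.coe_mul, inv_mul_cancel, Matrix.SpecialLinearGroup.coe_one]
  rw [this, one_mul]

/-- `det (x - y) = 2 - tr (x y⁻¹)`. -/
theorem det_sub (x y : SL2 K) : Matrix.det ((x : Matrix (Fin 2) (Fin 2) K) - (y : Matrix (Fin 2) (Fin 2) K))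
    = 2 - tr2 ((x * y⁻¹ : SL2 K) : Matrix (Fin 2) (Fin 2) K) := by
  have hx := det_entries x
  have hy := det_entries y
  rw [Matrix.SpecialLinearGroup.coe_mul, coe_inv_eq, Matrix.det_fin_two]
  simp [tr2, Matrix.mul_apply, Fin.sum_univ_two, Matrix.sub_apply]
  linear_combination hx + hy

variable {p : ℕ} [hp : Fact p.Prime] [CharP K p]

theorem pow_char_eq_one_of_sq_zero (N : Matrix (Fin 2) (Fin 2) K)
    (hN : N * N = 0) : (1 + N) ^ p = 1 := by
  haveI : CharP (Matrix (Fin 2) (Fin 2) K) p := inferInstance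
  rw [add_pow_char_of_commute p (Commute.one_left N), one_pow]
  have h2 : 2 ≤ p := hp.out.two_le
  have : N ^ p = 0 := by
    obtain ⟨k, rfl⟩ : ∃ k, p = 2 + k := ⟨p - 2, by omega⟩
    rw [pow_add, pow_two, hN, zero_mul]
  rw [this, add_zero]

/-- An element of order prime to `p` with trace `2` is trivial. -/
theorem eq_one_of_tr_two {g : SL2 K} {n : ℕ} (hg : g ^ n = 1) (hn : n.Coprime p)
    (htr : tr2 (g : Matrix (Fin 2) (Fin 2) K) = 2) : g = 1 := by
  have hsq : ((g : Matrix (Fin 2) (Fin 2) K) - 1) * ((g : Matrix (Fin 2) (Fin 2) K) - 1) = 0 := by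
    have h := sq_sub_tr g
    rw [htr] at h
    have : ((g : Matrix (Fin 2) (Fin 2) K) - 1) * ((g : Matrix (Fin 2) (Fin 2) K) - 1)
        = (g : Matrix (Fin 2) (Fin 2) K) * g - (2 : K) • (g : Matrix (Fin 2) (Fin 2) K) + 1 := by
      rw [two_smul]; noncomm_ring
    rw [this, h]
    abel
  have h1 := pow_char_eq_one_of_sq_zero (p := p) _ hsq
  rw [add_sub_cancel] at h1
  have h2 : g ^ p = 1 := by
    apply Subtype.ext
    rw [Matrix.SpecialLinearGroup.coe_pow, h1, Matrix.SpecialLinearGroup.coe_one]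
  have h3 : orderOf g ∣ Nat.gcd n p := Nat.dvd_gcd (orderOf_dvd_of_pow_eq_one hg)
    (orderOf_dvd_of_pow_eq_one h2)
  rw [hn] at h3
  exact orderOf_eq_one_iff.mp (Nat.dvd_one.mp h3)

/-- An element of odd order prime to `p` with trace `-2` is trivial. -/
theorem eq_one_of_tr_neg_two (hp2 : p ≠ 2) {g : SL2 K} {n : ℕ} (hg : g ^ n = 1) (hn : n.Coprime p)
    (hodd : Odd n) (htr : tr2 (g : Matrix (Fin 2) (Fin 2) K) = -2) : g = 1 := by
  have hsq : ((g : Matrix (Fin 2) (Fin 2) K) + 1) * ((g : Matrix (Fin 2) (Fin 2) K) + 1) = 0 := by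
    have h := sq_sub_tr g
    rw [htr] at h
    have : ((g : Matrix (Fin 2) (Fin 2) K) + 1) * ((g : Matrix (Fin 2) (Fin 2) K) + 1)
        = (g : Matrix (Fin 2) (Fin 2) K) * g + (2 : K) • (g : Matrix (Fin 2) (Fin 2) K) + 1 := by
      rw [two_smul]; noncomm_ring
    rw [this, h, neg_smul, two_smul]
    abel
  have h1 : (1 + (-((g : Matrix (Fin 2) (Fin 2) K) + 1))) ^ p = 1 :=
    pow_char_eq_one_of_sq_zero (p := p) _ (by rw [neg_mul_neg]; exact hsq)
  have h0 : (1 + (-((g : Matrix (Fin 2) (Fin 2) K) + 1))) = -(g : Matrix (Fin 2) (Fin 2) K) := by abel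
  rw [h0] at h1
  have hpodd : Odd p := hp.out.odd_of_ne_two hp2
  rw [hpodd.neg_pow] at h1
  have h2 : (g : Matrix (Fin 2) (Fin 2) K) ^ (p * 2) = 1 := by
    rw [pow_mul]
    have : (g : Matrix (Fin 2) (Fin 2) K) ^ p = -1 := by
      rw [← neg_neg ((g : Matrix (Fin 2) (Fin 2) K) ^ p), h1]
    rw [this]; simp
  have h3 : g ^ (p * 2) = 1 := by
    apply Subtype.ext
    rw [Matrix.SpecialLinearGroup.coe_pow, h2, Matrix.SpecialLinearGroup.coe_one]
  have h4 : orderOf g ∣ Nat.gcd n (p * 2) := Nat.dvd_gcd (orderOf_dvd_of_pow_eq_one hg)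
    (orderOf_dvd_of_pow_eq_one h3)
  have h5 : n.Coprime (p * 2) := Nat.Coprime.mul_right hn (by
    exact Nat.coprime_two_right.mpr hodd)
  rw [h5] at h4
  exact orderOf_eq_one_iff.mp (Nat.dvd_one.mp h4)

/-- The discriminant computation. -/
theorem disc_zero {a b c d n m l : K} (h2 : (2 : K) ≠ 0) (hdet' : n * (-n) - m * l = 0)
    (hne : ¬ (n = 0 ∧ m = 0 ∧ l = 0))
    (e00 : n * a + m * c = a * n + b * l) (e01 : n * b + m * d = a * m + b * (-n))
    (e10 : l * a + (-n) * c = c * n + d * l) : (a - d) ^ 2 + 4 * b * c = 0 := by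
  by_cases hm0 : m = 0
  · have hn0 : n = 0 := by
      have : n * n = 0 := by
        rw [hm0] at hdet'
        linear_combination -hdet'
      exact mul_self_eq_zero.mp this
    have hl0 : l ≠ 0 := fun hl0 => hne ⟨hn0, hm0, hl0⟩
    have hb0 : b = 0 := by
      rw [hm0, hn0] at e00
      have : b * l = 0 := by linear_combination -e00
      exact (mul_eq_zero.mp this).resolve_right hl0
    have had : a = d := by
      rw [hn0] at e10
      have : (a - d) * l = 0 := by linear_combination e10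
      exact sub_eq_zero.mp ((mul_eq_zero.mp this).resolve_right hl0)
    rw [hb0, had]; ring
  · have h1 : m * c = b * l := by linear_combination e00
    have h2' : (a - d) * m = 2 * b * n := by linear_combination -e01
    have h3 : n * (a - d) + 2 * b * l = 0 := by
      have : (n * (a - d) + 2 * b * l) * m = 0 := by
        linear_combination n * h2' + (-2 * b) * hdet'
      exact (mul_eq_zero.mp this).resolve_right hm0
    have : ((a - d) ^ 2 + 4 * b * c) * m = 0 := by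
      linear_combination (a - d) * h2' + 2 * b * h3 + 4 * b * h1
    exact (mul_eq_zero.mp this).resolve_right hm0

/-- Commuting with a non-trivial unipotent forces the trace to be `±2`. -/
theorem tr_sq_of_commute (hp2 : p ≠ 2) {A z : SL2 K} {e : ℕ} (hA : A ^ (p ^ e) = 1) (hA1 : A ≠ 1)
    (hc : A * z = z * A) : tr2 (z : Matrix (Fin 2) (Fin 2) K) = 2 ∨ tr2 (z : Matrix (Fin 2) (Fin 2) K) = -2 := by
  set N : Matrix (Fin 2) (Fin 2) K := (A : Matrix (Fin 2) (Fin 2) K) - 1 with hN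
  have hNne : N ≠ 0 := by
    intro h
    apply hA1
    apply Subtype.ext
    rw [Matrix.SpecialLinearGroup.coe_one]
    exact sub_eq_zero.mp h
  have hNpow : N ^ (p ^ e) = 0 := by
    rw [hN, sub_pow_char_pow_of_commute p e (Commute.one_right _), one_pow,
      ← Matrix.SpecialLinearGroup.coe_pow, hA, Matrix.SpecialLinearGroup.coe_one, sub_self]
  have hdet : Matrix.det N = 0 := by
    have : (Matrix.det N) ^ (p ^ e) = 0 := by
      rw [← Matrix.det_pow, hNpow]
      simp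
    exact pow_eq_zero_iff (pow_ne_zero _ hp.out.ne_zero) |>.mp this
  have hCH : N * N = tr2 N • N := by
    rw [Matrix.det_fin_two] at hdet
    ext i j
    fin_cases i <;> fin_cases j <;>
      simp [Matrix.mul_apply, Fin.sum_univ_two, tr2, Matrix.smul_apply] <;>
      first | ring1 | linear_combination (-1 : K) * hdet | linear_combination hdet
  have hpowk : ∀ k : ℕ, N ^ (k + 1) = (tr2 N) ^ k • N := by
    intro k
    induction k with
    | zero => simp
    | succ k ih =>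
      rw [pow_succ, ih, Matrix.smul_mul, hCH, smul_smul, pow_succ]
  have htr : tr2 N = 0 := by
    by_contra h
    have hk : p ^ e = (p ^ e - 1) + 1 := by
      have := Nat.pos_of_ne_zero (pow_ne_zero e hp.out.ne_zero)
      omega
    rw [hk, hpowk] at hNpow
    exact hNne ((smul_eq_zero.mp hNpow).resolve_left (pow_ne_zero _ h))
  -- entries
  have hcomm : N * (z : Matrix (Fin 2) (Fin 2) K) = z * N := by
    have : ((A * z : SL2 K) : Matrix (Fin 2) (Fin 2) K) = ((z * A : SL2 K) : Matrix (Fin 2) (Fin 2) K) := by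
      rw [hc]
    rw [Matrix.SpecialLinearGroup.coe_mul, Matrix.SpecialLinearGroup.coe_mul] at this
    rw [hN, sub_mul, mul_sub, this]
    simp
  have hzd := det_entries z
  have hN11 : N 1 1 = -N 0 0 := by
    have : N 0 0 + N 1 1 = 0 := htr
    linear_combination this
  have hdet' : N 0 0 * (-N 0 0) - N 0 1 * N 1 0 = 0 := by
    rw [Matrix.det_fin_two, hN11] at hdet
    exact hdet
  have e00 := congrFun (congrFun hcomm 0) 0
  have e01 := congrFun (congrFun hcomm 0) 1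
  have e10 := congrFun (congrFun hcomm 1) 0
  simp only [Matrix.mul_apply, Fin.sum_univ_two] at e00 e01 e10
  rw [hN11] at e01 e10
  have h2 : (2 : K) ≠ 0 := by
    intro h
    have h3 : ((2 : ℕ) : K) = 0 := by exact_mod_cast h
    have h4 := (CharP.cast_eq_zero_iff K p 2).mp h3
    have h5 := (Nat.prime_dvd_prime_iff_eq hp.out Nat.prime_two).mp h4
    exact hp2 h5
  have hne : ¬ (N 0 0 = 0 ∧ N 0 1 = 0 ∧ N 1 0 = 0) := by
    rintro ⟨h0, h1, h3⟩
    apply hNne
    ext i j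
    fin_cases i <;> fin_cases j
    · exact h0
    · exact h1
    · exact h3
    · show N 1 1 = 0
      rw [hN11, h0, neg_zero]
  have key := disc_zero h2 hdet' hne e00 e01 e10
  have hsq : (tr2 (z : Matrix (Fin 2) (Fin 2) K) - 2) * (tr2 (z : Matrix (Fin 2) (Fin 2) K) + 2) = 0 := by
    show ((z : Matrix (Fin 2) (Fin 2) K) 0 0 + (z : Matrix (Fin 2) (Fin 2) K) 1 1 - 2) * ((z : Matrix (Fin 2) (Fin 2) K) 0 0 + (z : Matrix (Fin 2) (Fin 2) K) 1 1 + 2) = 0
    linear_combination key + 4 * hzd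
  rcases mul_eq_zero.mp hsq with h | h
  · left; exact sub_eq_zero.mp h
  · right; exact eq_neg_of_add_eq_zero_left h

/-- Commuting elements with the same trace are equal or inverse, when traces `2` only occur at `1`. -/
theorem eq_or_eq_inv {z z' : SL2 K} (hc : z * z' = z' * z)
    (htr : tr2 (z : Matrix (Fin 2) (Fin 2) K) = tr2 (z' : Matrix (Fin 2) (Fin 2) K))
    (h1 : tr2 ((z * z'⁻¹ : SL2 K) : Matrix (Fin 2) (Fin 2) K) = 2 → z * z'⁻¹ = 1)
    (h2 : tr2 ((z * z'⁻¹⁻¹ : SL2 K) : Matrix (Fin 2) (Fin 2) K) = 2 → z * z'⁻¹⁻¹ = 1) :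
    z' = z ∨ z' = z⁻¹ := by
  have key : ((z : Matrix (Fin 2) (Fin 2) K) - (z' : Matrix (Fin 2) (Fin 2) K)) * ((z : Matrix (Fin 2) (Fin 2) K) - ((z'⁻¹ : SL2 K) : Matrix (Fin 2) (Fin 2) K)) = 0 := by
    have hz := sq_sub_tr z
    have hz' := add_inv z'
    have hzz : (z' : Matrix (Fin 2) (Fin 2) K) * ((z'⁻¹ : SL2 K) : Matrix (Fin 2) (Fin 2) K) = 1 := by
      rw [← Matrix.SpecialLinearGroup.coe_mul, mul_inv_cancel, Matrix.SpecialLinearGroup.coe_one]
    have hcc : (z' : Matrix (Fin 2) (Fin 2) K) * (z : Matrix (Fin 2) (Fin 2) K) = z * z' := by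
      rw [← Matrix.SpecialLinearGroup.coe_mul, ← Matrix.SpecialLinearGroup.coe_mul, hc]
    have e : ((z : Matrix (Fin 2) (Fin 2) K) - (z' : Matrix (Fin 2) (Fin 2) K)) * ((z : Matrix (Fin 2) (Fin 2) K) - ((z'⁻¹ : SL2 K) : Matrix (Fin 2) (Fin 2) K))
        = (z : Matrix (Fin 2) (Fin 2) K) * z - (z : Matrix (Fin 2) (Fin 2) K) * ((z' : Matrix (Fin 2) (Fin 2) K) + ((z'⁻¹ : SL2 K) : Matrix (Fin 2) (Fin 2) K)) + 1 := by
      rw [sub_mul, mul_sub, mul_sub, hzz, hcc, mul_add]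
      abel
    rw [e, hz, hz', ← htr, Matrix.mul_smul, mul_one]
    abel
  have hdet := congrArg Matrix.det key
  rw [Matrix.det_mul, Matrix.det_zero, det_sub, det_sub] at hdet
  rcases mul_eq_zero.mp hdet with h | h
  · left
    have := h1 (sub_eq_zero.mp h).symm
    exact (mul_inv_eq_one.mp this).symm
  · right
    have := h2 (sub_eq_zero.mp h).symm
    rw [inv_inv] at this
    exact eq_inv_of_mul_eq_one_right this

/-- **Main lemma.** A `q`-subgroup (`q` odd, `q ≠ p`) of `SL(2, K)`, `K` of characteristic `p`, is trivial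
as soon as it is normalized by a non-trivial element of `p`-power order (`p` odd). -/
theorem eq_bot_of_normalized [Finite K] {q : ℕ} [Fact q.Prime] (hp2 : p ≠ 2) (hq2 : q ≠ 2) (hpq : q ≠ p)
    (D : Subgroup (SL2 K)) (hD : IsPGroup q D) (A : SL2 K) (e : ℕ) (hA : A ^ (p ^ e) = 1) (hA1 : A ≠ 1)
    (hN : ∀ d ∈ D, A * d * A⁻¹ ∈ D) : D = ⊥ := by
  classical
  by_contra hne
  haveI : Finite (SL2 K) := Finite.of_injective (fun g : SL2 K => (g : Matrix (Fin 2) (Fin 2) K)) Subtype.val_injective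
  haveI : Nontrivial D := (Subgroup.nontrivial_iff_ne_bot D).mpr hne
  haveI := hD.center_nontrivial
  obtain ⟨⟨z, hz⟩, hz1⟩ := exists_ne (1 : Subgroup.center D)
  -- orders of elements of `D`
  have hord : ∀ g ∈ D, ∃ n : ℕ, g ^ n = 1 ∧ n.Coprime p ∧ Odd n := by
    intro g hg
    obtain ⟨k, hk⟩ := hD ⟨g, hg⟩
    refine ⟨q ^ k, ?_, ?_, ?_⟩
    · have := congrArg Subtype.val hk
      simpa using this
    · exact Nat.Coprime.pow_left _ ((Nat.coprime_primes Fact.out hp.out).mpr hpq)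
    · exact (Fact.out : q.Prime).odd_of_ne_two hq2 |>.pow
  have htwo : ∀ g ∈ D, tr2 (g : Matrix (Fin 2) (Fin 2) K) = 2 → g = 1 := by
    intro g hg h
    obtain ⟨n, h1, h2, -⟩ := hord g hg
    exact eq_one_of_tr_two h1 h2 h
  set z₀ : SL2 K := (z : SL2 K) with hz₀
  have hz₀D : z₀ ∈ D := z.2
  have hz₀1 : z₀ ≠ 1 := by
    intro h
    apply hz1
    apply Subtype.ext
    apply Subtype.ext
    exact h
  set z₁ : SL2 K := A * z₀ * A⁻¹ with hz₁
  have hz₁D : z₁ ∈ D := hN _ hz₀D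
  have hcomm : z₀ * z₁ = z₁ * z₀ := by
    have := Subgroup.mem_center_iff.mp hz ⟨z₁, hz₁D⟩
    have h2 := congrArg Subtype.val this
    exact h2.symm
  have htr : tr2 (z₀ : Matrix (Fin 2) (Fin 2) K) = tr2 (z₁ : Matrix (Fin 2) (Fin 2) K) := (tr2_conj A z₀).symm
  have hcase := eq_or_eq_inv hcomm htr
    (htwo _ (D.mul_mem hz₀D (D.inv_mem hz₁D)))
    (htwo _ (D.mul_mem hz₀D (D.inv_mem (D.inv_mem hz₁D))))
  -- `A²` commutes with `z₀`
  have hA2 : A ^ 2 * z₀ * (A ^ 2)⁻¹ = z₀ := by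
    have h1 : A ^ 2 * z₀ * (A ^ 2)⁻¹ = A * z₁ * A⁻¹ := by
      rw [hz₁, pow_two, _root_.mul_inv_rev]
      group
    rw [h1]
    rcases hcase with h | h
    · rw [h]
      exact hz₁.symm.trans h
    · rw [h]
      have : A * z₀⁻¹ * A⁻¹ = (A * z₀ * A⁻¹)⁻¹ := by group
      rw [this, ← hz₁, h, inv_inv]
  -- hence `A` commutes with `z₀`
  have hAcomm : A * z₀ = z₀ * A := by
    have hpodd : Odd (p ^ e) := (hp.out.odd_of_ne_two hp2).pow
    obtain ⟨m, hm⟩ := hpodd
    have hAA : A = (A ^ 2) ^ (m + 1) := by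
      rw [← pow_mul]
      have : 2 * (m + 1) = p ^ e + 1 := by omega
      rw [this, pow_succ, hA, one_mul]
    have hcomm2 : Commute (A ^ 2) z₀ := by
      show A ^ 2 * z₀ = z₀ * A ^ 2
      calc A ^ 2 * z₀ = (A ^ 2 * z₀ * (A ^ 2)⁻¹) * A ^ 2 := by group
        _ = z₀ * A ^ 2 := by rw [hA2]
    have : Commute ((A ^ 2) ^ (m + 1)) z₀ := hcomm2.pow_left _
    rw [← hAA] at this
    exact this
  obtain ⟨n, h1, h2, h3⟩ := hord z₀ hz₀D
  rcases tr_sq_of_commute hp2 hA hA1 hAcomm with h | h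
  · exact hz₀1 (eq_one_of_tr_two h1 h2 h)
  · exact hz₀1 (eq_one_of_tr_neg_two hp2 h1 h2 h3 h)

end Cfsg.Agent.Lib.CaseTh.SL2Trans
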