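/-
Quadratic action and `q`-groups: if `a` is a `p`-element acting quadratically on an elementary abelian `p`-group
`V`, normalizing a `q`-group `R` (`p, q` odd and distinct) acting on `V`, then `[a, R]` acts trivially on `V`.
-/
import Cfsg.Agent.Lib.CaseTh.SL2Trans
import Cfsg.Agent.Lib.QuadAct.ThmA

set_option autoImplicit false

namespace Cfsg.Agent.Lib.CaseTh.QuadQ

open Cfsg.Agent.Lib.QuadAct.ThmA Cfsg.Agent.Lib.CaseTh.SL2Trans TensorProduct

universe u v

theorem quad_iff {F : Type*} [Field F] {W : Type*} [AddCommGroup W] [Module F W] (y : Module.End F W) :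
    Quad y ↔ (y - 1) * (y - 1) = 0 := by
  constructor
  · intro h
    ext w
    have := h w
    simp only [Module.End.mul_apply, LinearMap.sub_apply, Module.End.one_apply, LinearMap.zero_apply]
    exact sub_eq_zero.mpr this
  · intro h w
    have := congrArg (fun f : Module.End F W => f w) h
    simp only [Module.End.mul_apply, LinearMap.sub_apply, Module.End.one_apply, LinearMap.zero_apply] at this
    exact sub_eq_zero.mp this

theorem quad_baseChange {F K : Type*} [Field F] [Field K] [Algebra F K] {W : Type*} [AddCommGroup W]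
    [Module F W] {f : Module.End F W} (h : Quad f) :
    Quad (Module.End.baseChangeHom F K W f) := by
  rw [quad_iff] at h ⊢
  have e : Module.End.baseChangeHom F K W f - 1 = Module.End.baseChangeHom F K W (f - 1) := by
    rw [map_sub, map_one]
  rw [e, ← map_mul, h, map_zero]

variable {G : Type v} [Group G]
  {p q : ℕ} [hp : Fact p.Prime] [hq : Fact q.Prime]

theorem mem_of_pow_mem_of_coprime {H : Subgroup G} {s : G} {m n : ℕ} (hc : m.Coprime n) (h1 : s ^ m ∈ H)
    (h2 : s ^ n ∈ H) : s ∈ H := by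
  have e : (Nat.gcd m n : ℤ) = m * Nat.gcdA m n + n * Nat.gcdB m n := Nat.gcd_eq_gcd_ab m n
  rw [hc] at e
  have : s = (s ^ m) ^ (Nat.gcdA m n) * (s ^ n) ^ (Nat.gcdB m n) := by
    rw [← zpow_natCast, ← zpow_natCast, ← zpow_mul, ← zpow_mul, ← zpow_add, ← e]
    simp
  rw [this]
  exact H.mul_mem (H.zpow_mem h1 _) (H.zpow_mem h2 _)

/-- Main statement, additive form. -/
theorem quad_comm_trivial_add [Finite G] {A : Type u} [AddCommGroup A] [Module (ZMod p) A] [Finite A]
    (hp2 : p ≠ 2) (hq2 : q ≠ 2) (hqp : q ≠ p)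
    (ρ : G → A →+ A) (hone : ∀ u, ρ 1 u = u) (hmul : ∀ g h u, ρ (g * h) u = ρ g (ρ h u))
    (R : Subgroup G) (hR : IsPGroup q R) (a : G) (e : ℕ) (ha : a ^ (p ^ e) = 1)
    (haR : a ∈ Subgroup.normalizer (R : Set G))
    (hquad : ∀ u : A, ρ a (ρ a u - u) = ρ a u - u) {r : G} (hr : r ∈ R) (u : A) :
    ρ (a⁻¹ * (r⁻¹ * a * r)) u = u := by
  classical
  by_contra hne
  set y : G := r⁻¹ * a * r with hy
  set s : G := a⁻¹ * y with hs
  have hainv : a⁻¹ ∈ Subgroup.normalizer (R : Set G) := Subgroup.inv_mem _ haR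
  have hsR : s ∈ R := by
    have e1 : s = (a⁻¹ * r⁻¹ * a⁻¹⁻¹) * r := by rw [hs, hy]; group
    rw [e1]
    exact R.mul_mem ((Subgroup.mem_normalizer_iff.mp hainv _).mp (R.inv_mem hr)) hr
  obtain ⟨l, hl⟩ := hR ⟨s, hsR⟩
  have hl' : s ^ (q ^ l) = 1 := by
    have := congrArg Subtype.val hl
    simpa using this
  set n : ℕ := Nat.totient (q ^ l) with hn
  have hn0 : n ≠ 0 := by
    rw [hn]
    exact (Nat.totient_pos.mpr (pow_pos hq.out.pos l)).ne'
  let K := GaloisField p n
  letI : Fintype K := Fintype.ofFinite K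
  have hcard : Fintype.card K = p ^ n := by
    rw [← Nat.card_eq_fintype_card]
    exact GaloisField.card p n hn0
  have hcop : p.Coprime (q ^ l) := Nat.Coprime.pow_right _ ((Nat.coprime_primes hp.out hq.out).mpr hqp.symm)
  have hk : q ^ l ∣ Fintype.card K - 1 := by
    rw [hcard]
    have h1 : p ^ n ≡ 1 [MOD q ^ l] := Nat.ModEq.pow_totient hcop
    exact (Nat.modEq_iff_dvd' (Nat.one_le_pow _ _ hp.out.pos)).mp h1.symm
  let ρF : G →* Module.End (ZMod p) A :=
    { toFun := fun g => (ρ g).toZModLinearMap p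
      map_one' := by
        ext x
        exact hone x
      map_mul' := by
        intro g h
        ext x
        exact hmul g h x }
  have hρF : ∀ (g : G) (u : A), ρF g u = ρ g u := fun _ _ => rfl
  have hfix : ∀ (g : G) (u : A), ρ g u = u → ρ g⁻¹ u = u := by
    intro g u h
    have h1 : ρ g⁻¹ (ρ g u) = u := by
      rw [← hmul, inv_mul_cancel, hone]
    rwa [h] at h1
  have hg1 : ∀ (g : G) (u : A), ρ g (ρ g⁻¹ u) = u := by
    intro g u
    rw [← hmul, mul_inv_cancel, hone]
  have hg2 : ∀ (g : G) (u : A), ρ g⁻¹ (ρ g u) = u := by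
    intro g u
    rw [← hmul, inv_mul_cancel, hone]
  -- quadratic elements
  have hqF : ∀ g : G, (∀ u : A, ρ g (ρ g u - u) = ρ g u - u) → Quad (ρF g) := by
    intro g h x
    exact h x
  have hqainv : ∀ u : A, ρ a⁻¹ (ρ a⁻¹ u - u) = ρ a⁻¹ u - u := by
    intro u
    have h1 := hquad (ρ a⁻¹ u)
    rw [hg1] at h1
    have h2 := hfix a _ h1
    have h3 : ρ a⁻¹ u - u = -(u - ρ a⁻¹ u) := by abel
    rw [h3, map_neg, h2]
  have hqy : ∀ u : A, ρ y (ρ y u - u) = ρ y u - u := by
    intro u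
    have e1 : ∀ w : A, ρ y w = ρ r⁻¹ (ρ a (ρ r w)) := by
      intro w
      rw [hy, hmul, hmul]
    have h1 : ρ r (ρ r⁻¹ (ρ a (ρ r u)) - u) = ρ a (ρ r u) - ρ r u := by rw [map_sub, hg1]
    rw [e1, e1, h1, hquad, map_sub, hg2]
  -- the group `Γ`
  let Γ : Subgroup G := Subgroup.closure ({a⁻¹, y} : Set G)
  have hainvΓ : a⁻¹ ∈ Γ := Subgroup.subset_closure (by simp)
  have hyΓ : y ∈ Γ := Subgroup.subset_closure (by simp)
  let a₀ : Γ := ⟨a⁻¹, hainvΓ⟩
  let b₀ : Γ := ⟨y, hyΓ⟩
  have hgen : Subgroup.closure ({a₀, b₀} : Set Γ) = (⊤ : Subgroup Γ) := by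
    have h1 : Subgroup.closure (((↑) : Γ → G) ⁻¹' ({a⁻¹, y} : Set G)) = ⊤ :=
      Subgroup.closure_closure_coe_preimage
    rw [← h1]
    congr 1
    ext x
    constructor
    · rintro (rfl | rfl)
      · simp [a₀]
      · simp [b₀]
    · rintro (h | h)
      · left; exact Subtype.ext h
      · right; exact Subtype.ext h
  haveI : Module.Finite (ZMod p) A := Module.Finite.of_finite
  let W := K ⊗[ZMod p] A
  let ρK : Γ →* Module.End K W :=
    (Module.End.baseChangeHom (ZMod p) K A).toMonoidHom.comp (ρF.comp Γ.subtype)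
  have hρK : ∀ g : Γ, ρK g = Module.End.baseChangeHom (ZMod p) K A (ρF g) := fun _ => rfl
  have hinj : Function.Injective (Module.End.baseChangeHom (ZMod p) K A) :=
    LinearMap.baseChangeHom_injective (ZMod p) A K
  have hqa : Quad (ρK a₀) := by
    rw [hρK]
    exact quad_baseChange (hqF a⁻¹ hqainv)
  have hqb : Quad (ρK b₀) := by
    rw [hρK]
    exact quad_baseChange (hqF y hqy)
  have hab0 : a₀ * b₀ = ⟨s, Γ.mul_mem hainvΓ hyΓ⟩ := rfl
  have hab : ρK ((a₀ * b₀) ^ (p ^ 0 * q ^ l)) = 1 := by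
    have h1 : (a₀ * b₀) ^ (p ^ 0 * q ^ l) = 1 := by
      apply Subtype.ext
      simpa [hab0] using hl'
    rw [h1, map_one]
  have hker : ∀ (m : ℕ), ρK ((a₀ * b₀) ^ (p ^ m)) = 1 → False := by
    intro m hm
    have h1 : ρF (s ^ (p ^ m)) = 1 := by
      apply hinj
      rw [map_one, ← hm, hρK]
      rfl
    have h2 : s ^ (p ^ m) ∈ (ρF.ker : Subgroup G) := by
      rw [MonoidHom.mem_ker]
      exact h1
    have h3 : s ^ (q ^ l) ∈ (ρF.ker : Subgroup G) := by
      rw [hl']
      exact Subgroup.one_mem _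
    have h4 := mem_of_pow_mem_of_coprime (Nat.Coprime.pow_left m hcop) h2 h3
    apply hne
    have h5 := congrArg (fun f : Module.End (ZMod p) A => f u) (MonoidHom.mem_ker.mp h4)
    exact h5
  have hpg : ¬ PG p ρK := by
    intro h
    obtain ⟨m, hm⟩ := h (a₀ * b₀)
    exact hker m hm
  obtain ⟨φ, hφ⟩ := main_aux (K := K) (p := p) hgen (e := 0) hk _ W ρK rfl hqa hqb hab hpg
  apply hφ
  -- the elements of `p`-power order
  have hapow : a₀ ^ (p ^ e) = 1 := by
    apply Subtype.ext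
    show (a⁻¹) ^ (p ^ e) = 1
    rw [inv_pow, ha, inv_one]
  have hbpow : b₀ ^ (p ^ e) = 1 := by
    apply Subtype.ext
    show y ^ (p ^ e) = 1
    have : y = MulAut.conj r⁻¹ a := by
      rw [hy, MulAut.conj_apply]
      group
    rw [this, ← map_pow, ha, map_one]
  have hsΓ : (a₀ * b₀) ^ (q ^ l) = 1 := by
    apply Subtype.ext
    simpa [hab0] using hl'
  -- key relation
  have hrel : φ a₀ * φ b₀ = 1 := by
    rw [← map_mul]
    by_cases hA1 : φ a₀ = 1
    · -- both orders
      rw [map_mul, hA1, one_mul]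
      have h1 : (φ b₀) ^ (p ^ e) = 1 := by rw [← map_pow, hbpow, map_one]
      have h2 : (φ b₀) ^ (q ^ l) = 1 := by
        have : φ b₀ = φ (a₀ * b₀) := by rw [map_mul, hA1, one_mul]
        rw [this, ← map_pow, hsΓ, map_one]
      have h3 : orderOf (φ b₀) ∣ Nat.gcd (p ^ e) (q ^ l) :=
        Nat.dvd_gcd (orderOf_dvd_of_pow_eq_one h1) (orderOf_dvd_of_pow_eq_one h2)
      have h4 : (p ^ e).Coprime (q ^ l) := Nat.Coprime.pow_left _ hcop
      rw [h4] at h3
      exact orderOf_eq_one_iff.mp (Nat.dvd_one.mp h3)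
    · -- Lemma M
      let D : Subgroup (SL2 K) := (R.subgroupOf Γ).map φ
      have hRΓ : IsPGroup q (R.subgroupOf Γ) := by
        intro x
        obtain ⟨k, hk⟩ := hR ⟨((x : Γ) : G), x.2⟩
        refine ⟨k, ?_⟩
        apply Subtype.ext
        apply Subtype.ext
        have := congrArg Subtype.val hk
        simpa using this
      have hD : IsPGroup q D := hRΓ.map φ
      have hDbot := eq_bot_of_normalized (K := K) (p := p) (q := q) hp2 hq2 hqp D hD (φ a₀) e
        (by rw [← map_pow, hapow, map_one]) hA1 (by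
          rintro _ ⟨x, hx, rfl⟩
          refine ⟨a₀ * x * a₀⁻¹, ?_, by simp⟩
          show a⁻¹ * (x : G) * (a⁻¹)⁻¹ ∈ R
          exact (Subgroup.mem_normalizer_iff.mp hainv _).mp hx)
      have hsD : φ (a₀ * b₀) ∈ D := ⟨a₀ * b₀, hsR, rfl⟩
      rw [hDbot, Subgroup.mem_bot] at hsD
      exact hsD
  have hmem : ∀ g : Γ, φ g ∈ Subgroup.zpowers (φ a₀) := by
    intro g
    have hg : g ∈ Subgroup.closure ({a₀, b₀} : Set Γ) := by rw [hgen]; trivial
    induction hg using Subgroup.closure_induction with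
    | mem x hx =>
      rcases hx with rfl | rfl
      · exact Subgroup.mem_zpowers _
      · have : φ b₀ = (φ a₀)⁻¹ := eq_inv_of_mul_eq_one_right hrel
        rw [this]
        exact Subgroup.inv_mem _ (Subgroup.mem_zpowers _)
    | one => rw [map_one]; exact Subgroup.one_mem _
    | mul x y _ _ hx hy => rw [map_mul]; exact Subgroup.mul_mem _ hx hy
    | inv x _ hx => rw [map_inv]; exact Subgroup.inv_mem _ hx
  intro g
  obtain ⟨i, hi⟩ := hmem g
  refine ⟨e, ?_⟩
  rw [← hi, ← zpow_natCast, ← zpow_mul, mul_comm, zpow_mul, zpow_natCast, ← map_pow, hapow, map_one, one_zpow]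

/-- Multiplicative form. -/
theorem quad_comm_trivial [Finite G] {V : Type u} [CommGroup V] [Finite V]
    (hp2 : p ≠ 2) (hq2 : q ≠ 2) (hqp : q ≠ p) (hV : ∀ u : V, u ^ p = 1)
    (ρ : G → V →* V) (hone : ∀ u, ρ 1 u = u) (hmul : ∀ g h u, ρ (g * h) u = ρ g (ρ h u))
    (R : Subgroup G) (hR : IsPGroup q R) (a : G) (e : ℕ) (ha : a ^ (p ^ e) = 1)
    (haR : a ∈ Subgroup.normalizer (R : Set G))
    (hquad : ∀ u : V, ρ a (ρ a u * u⁻¹) = ρ a u * u⁻¹) {r : G} (hr : r ∈ R) (u : V) :
    ρ (a⁻¹ * (r⁻¹ * a * r)) u = u := by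
  have hA : ∀ x : Additive V, p • x = 0 := by
    intro x
    change Additive.ofMul ((Additive.toMul x) ^ p) = 0
    rw [hV]
    rfl
  letI : Module (ZMod p) (Additive V) := AddCommGroup.zmodModule hA
  exact quad_comm_trivial_add (A := Additive V) hp2 hq2 hqp (fun g => MonoidHom.toAdditive (ρ g))
    (fun x => hone (Additive.toMul x)) (fun g h x => hmul g h (Additive.toMul x)) R hR a e ha haR
    (fun x => by
      have := hquad (Additive.toMul x)
      rw [← div_eq_mul_inv] at this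
      exact congrArg Additive.ofMul this) hr (Additive.ofMul u)

end Cfsg.Agent.Lib.CaseTh.QuadQ
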