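/-
Rank two isometries: a unipotent isometry `φ` of a symplectic space with `rank (φ - 1) ≤ 2` satisfies
`(φ - 1)² = 0`; applied to class two groups with derived subgroup central of exponent `p`, with automorphisms
acting trivially on the derived subgroup. Together with `QuadQ`: such an element centralizes `R` modulo the
kernel of the action of a `q`-group `R` it normalizes.
-/
import Cfsg.Agent.Lib.CaseTh.QuadQ

set_option autoImplicit false

namespace Cfsg.Agent.Lib.CaseTh.SympRank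

open Cfsg.Agent.Lib.CaseTh.QuadQ
open scoped commutatorElement

section bilin

variable {W : Type*} [CommGroup W] {C : Type*} [CommGroup C]

theorem beta_one_left {β : W → W → C} (hl : ∀ x x' y, β (x * x') y = β x y * β x' y) (y : W) :
    β 1 y = 1 := by
  have := hl 1 1 y
  rw [mul_one] at this
  exact (left_eq_mul.mp this)

theorem beta_one_right {β : W → W → C} (hr : ∀ x y y', β x (y * y') = β x y * β x y') (x : W) :
    β x 1 = 1 := by
  have := hr x 1 1
  rw [mul_one] at this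
  exact (left_eq_mul.mp this)

theorem beta_inv_left {β : W → W → C} (hl : ∀ x x' y, β (x * x') y = β x y * β x' y) (x y : W) :
    β x⁻¹ y = (β x y)⁻¹ := by
  have := hl x⁻¹ x y
  rw [inv_mul_cancel, beta_one_left hl] at this
  exact eq_inv_of_mul_eq_one_left this.symm

theorem beta_inv_right {β : W → W → C} (hr : ∀ x y y', β x (y * y') = β x y * β x y') (x y : W) :
    β x y⁻¹ = (β x y)⁻¹ := by
  have := hr x y⁻¹ y
  rw [inv_mul_cancel, beta_one_right hr] at this
  exact eq_inv_of_mul_eq_one_left this.symm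

theorem beta_zpow_left {β : W → W → C} (hl : ∀ x x' y, β (x * x') y = β x y * β x' y) (x y : W) (n : ℤ) :
    β (x ^ n) y = (β x y) ^ n := by
  induction n using Int.induction_on with
  | zero => simp [beta_one_left hl]
  | succ i ih =>
    rw [zpow_add_one, hl, ih, zpow_add_one]
  | pred i ih =>
    rw [zpow_sub_one, hl, ih, zpow_sub_one, beta_inv_left hl]

theorem beta_zpow_right {β : W → W → C} (hr : ∀ x y y', β x (y * y') = β x y * β x y') (x y : W) (n : ℤ) :
    β x (y ^ n) = (β x y) ^ n := by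
  induction n using Int.induction_on with
  | zero => simp [beta_one_right hr]
  | succ i ih =>
    rw [zpow_add_one, hr, ih, zpow_add_one]
  | pred i ih =>
    rw [zpow_sub_one, hr, ih, zpow_sub_one, beta_inv_right hr]

theorem beta_skew {β : W → W → C} (hl : ∀ x x' y, β (x * x') y = β x y * β x' y)
    (hr : ∀ x y y', β x (y * y') = β x y * β x y') (alt : ∀ x, β x x = 1) (x y : W) :
    β y x = (β x y)⁻¹ := by
  have := alt (x * y)
  rw [hl, hr, hr, alt, alt, one_mul, mul_one] at this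
  exact eq_inv_of_mul_eq_one_left (by rw [mul_comm]; exact this)

/-- The abstract rank two lemma. -/
theorem rank_two_lemma [Finite W] {p : ℕ} [hp : Fact p.Prime]
    (hW : ∀ u : W, u ^ p = 1) (f : W →* W)
    (hfix : (∃ x, f x ≠ 1) → ∃ w₁ ∈ f.range, w₁ ≠ 1 ∧ f w₁ = 1)
    (β : W → W → C) (hl : ∀ x x' y, β (x * x') y = β x y * β x' y)
    (hr : ∀ x y y', β x (y * y') = β x y * β x y') (alt : ∀ x, β x x = 1)
    (hP : ∀ u, f (f u) = 1 → ∀ v, β (f u) (f v) = 1)
    (hcard : Nat.card f.range ≤ p ^ 2) (x y : W) : β (f x) (f y) = 1 := by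
  by_cases htriv : ∃ x, f x ≠ 1
  · obtain ⟨w₁, ⟨u₁, rfl⟩, hw₁, hw₁f⟩ := hfix htriv
    have hw₁perp : ∀ v, β (f u₁) (f v) = 1 := hP u₁ hw₁f
    by_cases hcase : ∀ i ∈ f.range, i ∈ Subgroup.zpowers (f u₁)
    · obtain ⟨a, ha⟩ := hcase (f x) ⟨x, rfl⟩
      rw [← ha, beta_zpow_left hl, hw₁perp, one_zpow]
    · push_neg at hcase
      obtain ⟨w₂, hw₂, hw₂z⟩ := hcase
      set H := Subgroup.closure ({f u₁, w₂} : Set W) with hH
      have hHle : H ≤ f.range := by
        rw [hH, Subgroup.closure_le]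
        rintro z (rfl | rfl)
        · exact ⟨u₁, rfl⟩
        · exact hw₂
      have hZH : Subgroup.zpowers (f u₁) ≤ H := by
        rw [Subgroup.zpowers_le]
        exact Subgroup.subset_closure (by simp)
      have hw₂H : w₂ ∈ H := Subgroup.subset_closure (by simp)
      have hHp : IsPGroup p H := by
        rw [IsPGroup]
        intro g
        exact ⟨1, Subtype.ext (by simpa using hW g)⟩
      obtain ⟨k, hk⟩ := IsPGroup.iff_card.mp hHp
      have hcardZ : Nat.card (Subgroup.zpowers (f u₁)) = p := by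
        rw [Nat.card_zpowers]
        exact orderOf_eq_prime (hW _) hw₁
      have hk2 : 2 ≤ k := by
        by_contra hlt
        have hk1 : Nat.card H ≤ p := by
          rw [hk]
          calc p ^ k ≤ p ^ 1 := Nat.pow_le_pow_right hp.out.pos (by omega)
            _ = p := pow_one p
        have heq : Subgroup.zpowers (f u₁) = H :=
          Subgroup.eq_of_le_of_card_ge hZH (by rw [hcardZ]; exact hk1)
        exact hw₂z (heq ▸ hw₂H)
      have hHeq : H = f.range := by
        apply Subgroup.eq_of_le_of_card_ge hHle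
        rw [hk]
        exact hcard.trans (Nat.pow_le_pow_right hp.out.pos hk2)
      have hmem : ∀ z : W, ∃ m n : ℤ, (f u₁) ^ m * w₂ ^ n = f z := by
        intro z
        have : f z ∈ H := by rw [hHeq]; exact ⟨z, rfl⟩
        have h2 := Subgroup.mem_closure_pair.mp this
        exact h2
      obtain ⟨a, b, hab⟩ := hmem x
      obtain ⟨c, d, hcd⟩ := hmem y
      have hw₁w₂ : β (f u₁) w₂ = 1 := by
        obtain ⟨v, rfl⟩ := hw₂
        exact hw₁perp v
      have h21 : β w₂ (f u₁) = 1 := by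
        rw [beta_skew hl hr alt (f u₁) w₂, hw₁w₂, inv_one]
      rw [← hab, hl, beta_zpow_left hl, hw₁perp, one_zpow, one_mul, beta_zpow_left hl, ← hcd, hr,
        beta_zpow_right hr, beta_zpow_right hr, h21, alt]
      simp
  · push_neg at htriv
    rw [htriv x, beta_one_left hl]

/-- Iterating `φ - 1`. -/
theorem iter_sub_eq_zero {A : Type*} [AddCommGroup A] {p : ℕ} [hp : Fact p.Prime] [Module (ZMod p) A]
    (L : A →+ A) (e : ℕ) (hL : ∀ x, (⇑L)^[p ^ e] x = x) (x : A) :
    (fun y => L y - y)^[p ^ e] x = 0 := by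
  classical
  by_cases hnt : Nontrivial A
  · let L' : Module.End (ZMod p) A := L.toZModLinearMap p
    have h1 : ∀ (n : ℕ) (z : A), (L' ^ n) z = (⇑L)^[n] z := by
      intro n z
      rw [Module.End.pow_apply]
      rfl
    have hL' : L' ^ (p ^ e) = 1 := by
      refine LinearMap.ext fun z => ?_
      rw [h1, hL]
      rfl
    haveI : CharP (Module.End (ZMod p) A) p :=
      charP_of_injective_algebraMap (algebraMap (ZMod p) (Module.End (ZMod p) A)).injective p
    have h2 : (L' - 1) ^ (p ^ e) = 0 := by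
      rw [sub_pow_char_pow_of_commute p e (Commute.one_right _), one_pow, hL', sub_self]
    have h3 : ∀ (n : ℕ) (z : A), ((L' - 1) ^ n) z = (fun y => L y - y)^[n] z := by
      intro n z
      rw [Module.End.pow_apply]
      rfl
    rw [← h3, h2]
    rfl
  · rw [not_nontrivial_iff_subsingleton] at hnt
    exact Subsingleton.elim _ _

/-- Fixed points from unipotence, multiplicative form. -/
theorem exists_fixed_of_unipotent [Finite W] {p : ℕ} [hp : Fact p.Prime] (hW : ∀ u : W, u ^ p = 1)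
    (Φ : W →* W) (e : ℕ) (hΦ : ∀ x, (⇑Φ)^[p ^ e] x = x) :
    (∃ x, (Φ / MonoidHom.id W) x ≠ 1) →
      ∃ w₁ ∈ (Φ / MonoidHom.id W).range, w₁ ≠ 1 ∧ (Φ / MonoidHom.id W) w₁ = 1 := by
  classical
  set f := Φ / MonoidHom.id W with hf
  have hA : ∀ x : Additive W, p • x = 0 := by
    intro x
    change Additive.ofMul ((Additive.toMul x) ^ p) = 0
    rw [hW]
    rfl
  letI : Module (ZMod p) (Additive W) := AddCommGroup.zmodModule hA
  have hnil : ∀ x : W, (⇑f)^[p ^ e] x = 1 := by
    intro x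
    have h1 := iter_sub_eq_zero (A := Additive W) (MonoidHom.toAdditive Φ) e
      (fun z => hΦ (Additive.toMul z)) (Additive.ofMul x)
    have h2 : ∀ (n : ℕ) (z : W), (fun y => (MonoidHom.toAdditive Φ) y - y)^[n] (Additive.ofMul z)
        = Additive.ofMul ((⇑f)^[n] z) := by
      intro n
      induction n with
      | zero => intro z; rfl
      | succ n ih =>
        intro z
        rw [Function.iterate_succ_apply, Function.iterate_succ_apply]
        have : (MonoidHom.toAdditive Φ) (Additive.ofMul z) - Additive.ofMul z = Additive.ofMul (f z) := rfl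
        rw [this, ih]
    rw [h2] at h1
    exact h1
  rintro ⟨x, hx⟩
  let n := Nat.find (⟨p ^ e, hnil x⟩ : ∃ n, (⇑f)^[n] x = 1)
  have hn : (⇑f)^[n] x = 1 := Nat.find_spec (⟨p ^ e, hnil x⟩ : ∃ n, (⇑f)^[n] x = 1)
  have hmin : ∀ m < n, (⇑f)^[m] x ≠ 1 := fun m hm => Nat.find_min (⟨p ^ e, hnil x⟩ : ∃ n, (⇑f)^[n] x = 1) hm
  have hn0 : n ≠ 0 := by
    intro h
    rw [h] at hn
    apply hx
    have hx1 : x = 1 := hn
    rw [hx1, map_one]
  have hn1 : n ≠ 1 := by
    intro h
    rw [h] at hn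
    exact hx hn
  obtain ⟨m, hm⟩ : ∃ m, n = m + 2 := ⟨n - 2, by omega⟩
  refine ⟨f ((⇑f)^[m] x), ⟨_, rfl⟩, ?_, ?_⟩
  · have := hmin (m + 1) (by omega)
    rwa [Function.iterate_succ_apply'] at this
  · rw [hm, Function.iterate_succ_apply', Function.iterate_succ_apply'] at hn
    exact hn

end bilin

section classTwo

variable {N : Type*} [Group N]

theorem comm_mul_left (hc : ∀ x y : N, ⁅x, y⁆ ∈ Subgroup.center N) (x x' y : N) :
    ⁅x * x', y⁆ = ⁅x, y⁆ * ⁅x', y⁆ := by
  have h1 : x * ⁅x', y⁆ * x⁻¹ = ⁅x', y⁆ := by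
    have := Subgroup.mem_center_iff.mp (hc x' y) x
    rw [this]
    group
  calc ⁅x * x', y⁆ = (x * ⁅x', y⁆ * x⁻¹) * ⁅x, y⁆ := by
        simp only [commutatorElement_def]; group
    _ = ⁅x', y⁆ * ⁅x, y⁆ := by rw [h1]
    _ = ⁅x, y⁆ * ⁅x', y⁆ := (Subgroup.mem_center_iff.mp (hc x' y) _).symm

theorem comm_mul_right (hc : ∀ x y : N, ⁅x, y⁆ ∈ Subgroup.center N) (x y y' : N) :
    ⁅x, y * y'⁆ = ⁅x, y⁆ * ⁅x, y'⁆ := by
  have h1 : y * ⁅x, y'⁆ * y⁻¹ = ⁅x, y'⁆ := by
    have := Subgroup.mem_center_iff.mp (hc x y') y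
    rw [this]
    group
  calc ⁅x, y * y'⁆ = ⁅x, y⁆ * (y * ⁅x, y'⁆ * y⁻¹) := by
        simp only [commutatorElement_def]; group
    _ = ⁅x, y⁆ * ⁅x, y'⁆ := by rw [h1]

theorem comm_inv_left (hc : ∀ x y : N, ⁅x, y⁆ ∈ Subgroup.center N) (x y : N) :
    ⁅x⁻¹, y⁆ = ⁅x, y⁆⁻¹ := by
  have := comm_mul_left hc x⁻¹ x y
  rw [inv_mul_cancel, commutatorElement_one_left] at this
  exact eq_inv_of_mul_eq_one_left this.symm

theorem comm_inv_right (hc : ∀ x y : N, ⁅x, y⁆ ∈ Subgroup.center N) (x y : N) :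
    ⁅x, y⁻¹⁆ = ⁅x, y⁆⁻¹ := by
  have := comm_mul_right hc x y⁻¹ y
  rw [inv_mul_cancel, commutatorElement_one_right] at this
  exact eq_inv_of_mul_eq_one_left this.symm

theorem comm_pow_left (hc : ∀ x y : N, ⁅x, y⁆ ∈ Subgroup.center N) (x y : N) (n : ℕ) :
    ⁅x ^ n, y⁆ = ⁅x, y⁆ ^ n := by
  induction n with
  | zero => simp
  | succ n ih => rw [pow_succ, comm_mul_left hc, ih, pow_succ]

theorem comm_congr {x x' y y' : N} (h1 : x⁻¹ * x' ∈ Subgroup.center N) (h2 : y⁻¹ * y' ∈ Subgroup.center N) :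
    ⁅x', y'⁆ = ⁅x, y⁆ := by
  obtain ⟨z, hz, rfl⟩ : ∃ z ∈ Subgroup.center N, x' = x * z := ⟨x⁻¹ * x', h1, by group⟩
  obtain ⟨z', hz', rfl⟩ : ∃ z ∈ Subgroup.center N, y' = y * z := ⟨y⁻¹ * y', h2, by group⟩
  have e1 : z * (y * z') * z⁻¹ = y * z' := by
    have := Subgroup.mem_center_iff.mp hz (y * z')
    rw [← this]
    group
  have e2 : z' * x⁻¹ * z'⁻¹ = x⁻¹ := by
    have := Subgroup.mem_center_iff.mp hz' x⁻¹
    rw [← this]
    group
  have e3 : ⁅x * z, y * z'⁆ = x * (z * (y * z') * z⁻¹) * x⁻¹ * (y * z')⁻¹ := by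
    simp only [commutatorElement_def]; group
  have e4 : x * (y * z') * x⁻¹ * (y * z')⁻¹ = x * y * (z' * x⁻¹ * z'⁻¹) * y⁻¹ := by group
  rw [e3, e1, e4, e2, commutatorElement_def]

/-- The form of Lemma `S` with `W` an abstract quotient. -/
theorem quadratic_of_rank_two [Finite N] {W : Type*} [CommGroup W] [Finite W]
    {p : ℕ} [hp : Fact p.Prime] (π : N →* W) (hπ : Function.Surjective π)
    (hker : π.ker = Subgroup.center N) (hc : ∀ x y : N, ⁅x, y⁆ ∈ Subgroup.center N)
    (hW : ∀ u : W, u ^ p = 1)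
    (φ : N ≃* N) (Φ : W →* W) (hφΦ : ∀ x, π (φ x) = Φ (π x)) (hφc : ∀ x y : N, φ ⁅x, y⁆ = ⁅x, y⁆)
    (e : ℕ) (hΦ : ∀ x, (⇑Φ)^[p ^ e] x = x)
    (K₀ : Subgroup W) (hK₀ : K₀.index ≤ p ^ 2) (hK₀Φ : ∀ w ∈ K₀, Φ w = w) (u : W) :
    Φ (Φ u / u) = Φ u / u := by
  classical
  set f := Φ / MonoidHom.id W with hf
  have hfapp : ∀ z, f z = Φ z / z := fun _ => rfl
  have hfπ : ∀ x, f (π x) = π (φ x * x⁻¹) := by
    intro x
    rw [hfapp, map_mul, map_inv, hφΦ, div_eq_mul_inv]
  set σ : W → N := Function.surjInv hπ with hσ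
  have hσπ : ∀ w, π (σ w) = w := Function.surjInv_eq hπ
  have hmemker : ∀ x y : N, π x = π y → x⁻¹ * y ∈ Subgroup.center N := by
    intro x y h
    rw [← hker, MonoidHom.mem_ker, map_mul, map_inv, h, inv_mul_cancel]
  letI instC : CommGroup (Subgroup.center N) :=
    { (inferInstance : Group (Subgroup.center N)) with
      mul_comm := fun a b => Subtype.ext (Subgroup.mem_center_iff.mp a.2 (b : N)).symm }
  let β : W → W → Subgroup.center N := fun v w => ⟨⁅σ v, σ w⁆, hc _ _⟩
  have hβ : ∀ x y, (β (π x) (π y) : N) = ⁅x, y⁆ := by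
    intro x y
    exact comm_congr (hmemker _ _ (hσπ _).symm) (hmemker _ _ (hσπ _).symm) |>.symm ▸ rfl
  have hβmk : ∀ x y, β (π x) (π y) = ⟨⁅x, y⁆, hc x y⟩ := fun x y => Subtype.ext (hβ x y)
  have hl : ∀ x x' y, β (x * x') y = β x y * β x' y := by
    intro x x' y
    obtain ⟨x, rfl⟩ := hπ x
    obtain ⟨x', rfl⟩ := hπ x'
    obtain ⟨y, rfl⟩ := hπ y
    rw [← map_mul]
    apply Subtype.ext
    rw [hβ]
    show _ = ((β (π x) (π y) : N) * (β (π x') (π y) : N))
    rw [hβ, hβ, comm_mul_left hc]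
  have hr : ∀ x y y', β x (y * y') = β x y * β x y' := by
    intro x y y'
    obtain ⟨x, rfl⟩ := hπ x
    obtain ⟨y, rfl⟩ := hπ y
    obtain ⟨y', rfl⟩ := hπ y'
    rw [← map_mul]
    apply Subtype.ext
    rw [hβ]
    show _ = ((β (π x) (π y) : N) * (β (π x) (π y') : N))
    rw [hβ, hβ, comm_mul_right hc]
  have alt : ∀ x, β x x = 1 := by
    intro x
    apply Subtype.ext
    exact commutatorElement_self _
  -- the duality identity
  have hdual : ∀ v w, β (f v) (Φ w) = (β v (f w))⁻¹ := by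
    intro v w
    obtain ⟨x, rfl⟩ := hπ v
    obtain ⟨y, rfl⟩ := hπ w
    rw [hfπ, hfπ, ← hφΦ]
    apply Subtype.ext
    rw [hβ]
    show _ = ((β (π x) (π (φ y * y⁻¹)) : N))⁻¹
    rw [hβ, comm_mul_left hc, comm_mul_right hc, comm_inv_left hc, comm_inv_right hc, ← map_commutatorElement,
      hφc]
    have hcomm : Commute ⁅x, φ y⁆ (⁅x, y⁆⁻¹) := Subgroup.mem_center_iff.mp (hc x (φ y)) _ |>.symm
    rw [mul_inv_rev, inv_inv]
  have hΦsurj : Function.Surjective Φ := by
    intro w
    obtain ⟨x, rfl⟩ := hπ w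
    exact ⟨π (φ.symm x), by rw [← hφΦ]; simp⟩
  have hP : ∀ v, f (f v) = 1 → ∀ w, β (f v) (f w) = 1 := by
    intro v hv w
    have := hdual (f v) w
    rw [hv, beta_one_left (β := β) hl] at this
    exact inv_eq_one.mp this.symm
  have hcard : Nat.card f.range ≤ p ^ 2 := by
    have h1 : K₀ ≤ f.ker := by
      intro w hw
      rw [MonoidHom.mem_ker, hfapp, hK₀Φ w hw, div_self']
    rw [← Subgroup.index_ker]
    haveI : K₀.FiniteIndex := ⟨by
      intro h0
      exact (Nat.card_pos (α := W ⧸ K₀)).ne' h0⟩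
    exact (Nat.le_of_dvd (Nat.pos_of_ne_zero Subgroup.FiniteIndex.index_ne_zero)
      (Subgroup.index_dvd_of_le h1)).trans hK₀
  have hfixf := exists_fixed_of_unipotent hW Φ e hΦ
  have hall := rank_two_lemma hW f hfixf β hl hr alt hP hcard
  -- conclusion
  have hfinal : f (f u) = 1 := by
    have hperp : ∀ w, β (f (f u)) w = 1 := by
      intro w
      obtain ⟨w', rfl⟩ := hΦsurj w
      rw [hdual, hall, inv_one]
    have h2 : σ (f (f u)) ∈ Subgroup.center N := by
      rw [Subgroup.mem_center_iff]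
      intro g
      have h3 := hperp (π g)
      have h4 : (β (π (σ (f (f u)))) (π g) : N) = 1 := by
        rw [hσπ, h3]
        rfl
      rw [hβ] at h4
      exact ((commutatorElement_eq_one_iff_commute.mp h4).symm : _)
    rw [← hker, MonoidHom.mem_ker, hσπ] at h2
    exact h2
  have : Φ (f u) / f u = 1 := hfinal
  exact div_eq_one.mp this

end classTwo

section T1

open scoped Pointwise

variable {N : Type*} [Group N] [Finite N] {G : Type*} [Group G] [Finite G] {p q : ℕ}
  [hp : Fact p.Prime] [hq : Fact q.Prime]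

/-- The theorem on the action on a class two group with commutators of exponent `p`. -/
theorem T1 (hp2 : p ≠ 2) (hq2 : q ≠ 2) (hqp : q ≠ p)
    (hc : ∀ x y : N, ⁅x, y⁆ ∈ Subgroup.center N) (hexp : ∀ x y : N, ⁅x, y⁆ ^ p = 1)
    (α : G →* MulAut N) (R : Subgroup G) (hR : IsPGroup q R) (a : G) (e : ℕ) (ha : a ^ (p ^ e) = 1)
    (haR : a ∈ Subgroup.normalizer (R : Set G))
    (htriv : ∀ x y : N, α a ⁅x, y⁆ = ⁅x, y⁆)
    (S₀ : Subgroup N) (hS : S₀.index ≤ p ^ 2) (hS₀ : ∀ s ∈ S₀, α a s * s⁻¹ ∈ Subgroup.center N)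
    {r : G} (hr : r ∈ R) (x : N) :
    α (a⁻¹ * (r⁻¹ * a * r)) x * x⁻¹ ∈ Subgroup.center N := by
  classical
  let π0 : N →* N ⧸ Subgroup.center N := QuotientGroup.mk' _
  have hcomm : ∀ u v : N ⧸ Subgroup.center N, u * v = v * u := by
    intro u v
    obtain ⟨x, rfl⟩ := QuotientGroup.mk_surjective u
    obtain ⟨y, rfl⟩ := QuotientGroup.mk_surjective v
    have : ((x : N ⧸ Subgroup.center N)) * y * (x : N ⧸ Subgroup.center N)⁻¹ * (y : N ⧸ Subgroup.center N)⁻¹ = 1 := by
      have h := (QuotientGroup.eq_one_iff (⁅x, y⁆)).mpr (hc x y)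
      simpa [commutatorElement_def] using h
    calc ((x : N ⧸ Subgroup.center N)) * y
        = (((x : N ⧸ Subgroup.center N)) * y * (x : N ⧸ Subgroup.center N)⁻¹ * (y : N ⧸ Subgroup.center N)⁻¹) * (y * x) := by group
      _ = y * x := by rw [this, one_mul]
  letI instW : CommGroup (N ⧸ Subgroup.center N) :=
    { (inferInstance : Group (N ⧸ Subgroup.center N)) with mul_comm := hcomm }
  let π : N →* N ⧸ Subgroup.center N := QuotientGroup.mk' _
  have hπ : Function.Surjective π := QuotientGroup.mk'_surjective _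
  have hker : π.ker = Subgroup.center N := QuotientGroup.ker_mk' _
  have hW : ∀ u : N ⧸ Subgroup.center N, u ^ p = 1 := by
    intro u
    obtain ⟨x, rfl⟩ := hπ u
    rw [← map_pow, ← MonoidHom.mem_ker, hker, Subgroup.mem_center_iff]
    intro g
    have h1 : ⁅x ^ p, g⁆ = 1 := by rw [comm_pow_left hc, hexp]
    exact ((commutatorElement_eq_one_iff_commute.mp h1).symm : _)
  have hcen : ∀ (g : G) (z : N), z ∈ Subgroup.center N → α g z ∈ Subgroup.center N := by
    intro g z hz
    rw [Subgroup.mem_center_iff] at hz ⊢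
    intro y
    obtain ⟨y, rfl⟩ := (α g).surjective y
    rw [← map_mul, ← map_mul, hz]
  let ρ : G → (N ⧸ Subgroup.center N) →* (N ⧸ Subgroup.center N) := fun g =>
    QuotientGroup.map _ _ (α g).toMonoidHom (fun z hz => hcen g z hz)
  have hρ : ∀ (g : G) (x : N), ρ g (π x) = π (α g x) := fun _ _ => rfl
  have hone : ∀ u, ρ 1 u = u := by
    intro u
    obtain ⟨x, rfl⟩ := hπ u
    rw [hρ, map_one]
    rfl
  have hmul : ∀ g h u, ρ (g * h) u = ρ g (ρ h u) := by
    intro g h u
    obtain ⟨x, rfl⟩ := hπ u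
    rw [hρ, hρ, hρ, map_mul]
    rfl
  have hρpow : ∀ (n : ℕ) (u : N ⧸ Subgroup.center N), (⇑(ρ a))^[n] u = ρ (a ^ n) u := by
    intro n
    induction n with
    | zero =>
      intro u
      rw [pow_zero, hone]
      rfl
    | succ n ih =>
      intro u
      rw [Function.iterate_succ_apply, ih, ← hmul, pow_succ]
  have hquad : ∀ u, ρ a (ρ a u * u⁻¹) = ρ a u * u⁻¹ := by
    intro u
    have h1 := quadratic_of_rank_two π hπ hker hc hW (α a) (ρ a) (fun x => (hρ a x).symm) htriv e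
      (fun u => by rw [hρpow, ha, hone]) (S₀.map π)
      ((Nat.le_of_dvd (Nat.pos_of_ne_zero (by
        intro h0
        have := Nat.card_pos (α := N ⧸ S₀)
        exact this.ne' h0)) (Subgroup.index_map_dvd S₀ hπ)).trans hS)
      (by
        rintro _ ⟨s, hs, rfl⟩
        rw [hρ]
        have h2 := hS₀ s hs
        rw [← hker, MonoidHom.mem_ker, map_mul, map_inv] at h2
        exact mul_inv_eq_one.mp h2) u
    rwa [div_eq_mul_inv] at h1
  have h := quad_comm_trivial hp2 hq2 hqp hW ρ hone hmul R hR a e ha haR hquad hr (π x)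
  rw [hρ] at h
  rw [← hker, MonoidHom.mem_ker, map_mul, map_inv, h, mul_inv_cancel]

end T1

end Cfsg.Agent.Lib.CaseTh.SympRank
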