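/-
The abstract core of the key lemma for Thompson's transitivity theorem.
-/
import Cfsg.Agent.Lib.CaseTh.SympRank
import Cfsg.Agent.Lib.CharP.Basic
import Cfsg.Agent.Lib.Coprime.Abelian
import Cfsg.Agent.Lib.PGroups.Basic
import Cfsg.Agent.Lib.QuadAct.Replacement

set_option autoImplicit false

namespace Cfsg.Agent.Lib.CaseTh.ThomAL

open Subgroup
open scoped commutatorElement
open Cfsg.Agent.Lib.CaseTh.SympRank Cfsg.Agent.Lib.Coprime.Action

variable {G : Type*} [Group G] {p q : ℕ}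

theorem mk_commute_of_comm_mem {K : Subgroup G} [K.Normal] {u v : G} (h : ⁅u, v⁆ ∈ K) :
    (QuotientGroup.mk' K u) * (QuotientGroup.mk' K v) = (QuotientGroup.mk' K v) * (QuotientGroup.mk' K u) := by
  have h1 : QuotientGroup.mk' K ⁅u, v⁆ = 1 := (QuotientGroup.eq_one_iff _).mpr h
  rw [commutatorElement_def, map_mul, map_mul, map_mul, map_inv, map_inv] at h1
  calc (QuotientGroup.mk' K u) * (QuotientGroup.mk' K v)
      = ((QuotientGroup.mk' K u) * (QuotientGroup.mk' K v) * (QuotientGroup.mk' K u)⁻¹ * (QuotientGroup.mk' K v)⁻¹)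
        * ((QuotientGroup.mk' K v) * (QuotientGroup.mk' K u)) := by group
    _ = _ := by rw [h1, one_mul]

theorem comm_mem_of_mk_commute {K : Subgroup G} [K.Normal] {u v : G}
    (h : (QuotientGroup.mk' K u) * (QuotientGroup.mk' K v) = (QuotientGroup.mk' K v) * (QuotientGroup.mk' K u)) :
    ⁅u, v⁆ ∈ K := by
  rw [← QuotientGroup.eq_one_iff]
  show QuotientGroup.mk' K ⁅u, v⁆ = 1
  rw [commutatorElement_def, map_mul, map_mul, map_mul, map_inv, map_inv, h]
  group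

variable [Finite G] [hp : Fact p.Prime] [hq : Fact q.Prime]

/-- The form of `T1` with normal subgroups `K ≤ N`, expressed with commutators. -/
theorem core_T1 (hp2 : p ≠ 2) (hq2 : q ≠ 2) (hqp : q ≠ p) (N K : Subgroup G) [hN : N.Normal] [hK : K.Normal]
    (hc : ∀ n ∈ N, ∀ m ∈ N, ∀ l ∈ N, ⁅⁅n, m⁆, l⁆ ∈ K) (hexp : ∀ n ∈ N, ∀ m ∈ N, ⁅n, m⁆ ^ p ∈ K)
    (R : Subgroup G) (hR : IsPGroup q R) (a : G) (e : ℕ) (ha : a ^ (p ^ e) = 1)
    (haR : a ∈ normalizer (R : Set G))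
    (htriv : ∀ n ∈ N, ∀ m ∈ N, ⁅a, ⁅n, m⁆⁆ ∈ K)
    (S : Subgroup G) (hSN : S ≤ N) (hS : Nat.card N ≤ p ^ 2 * Nat.card S)
    (hS' : ∀ s ∈ S, ∀ m ∈ N, ⁅⁅a, s⁆, m⁆ ∈ K)
    {r : G} (hr : r ∈ R) {n m : G} (hn : n ∈ N) (hm : m ∈ N) :
    ⁅⁅a⁻¹ * (r⁻¹ * a * r), n⁆, m⁆ ∈ K := by
  classical
  let π : G →* G ⧸ K := QuotientGroup.mk' K
  have hπs : Function.Surjective π := QuotientGroup.mk'_surjective K
  let Nb : Subgroup (G ⧸ K) := N.map π
  haveI hNb : Nb.Normal := hN.map π hπs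
  let α : G →* MulAut Nb := (MulAut.conjNormal (H := Nb)).comp π
  have hα : ∀ (g : G) (x : Nb), ((α g x : Nb) : G ⧸ K) = π g * x * (π g)⁻¹ := by
    intro g x
    show ((MulAut.conjNormal (π g) x : Nb) : G ⧸ K) = _
    rw [MulAut.conjNormal_apply]
  have hmem : ∀ x : Nb, ∃ u ∈ N, (x : G ⧸ K) = π u := by
    rintro ⟨_, u, hu, rfl⟩
    exact ⟨u, hu, rfl⟩
  have hcenter : ∀ x : Nb, (∀ l ∈ N, π l * x = x * π l) → x ∈ center Nb := by
    intro x h
    rw [mem_center_iff]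
    intro g
    obtain ⟨l, hl, hg⟩ := hmem g
    apply Subtype.ext
    show (g : G ⧸ K) * x = x * g
    rw [hg]
    exact h l hl
  have hcomm : ∀ (x y : Nb) (u v : G), (x : G ⧸ K) = π u → (y : G ⧸ K) = π v →
      (((⁅x, y⁆ : Nb)) : G ⧸ K) = π ⁅u, v⁆ := by
    intro x y u v hx hy
    rw [commutatorElement_def, commutatorElement_def]
    simp only [Subgroup.coe_mul, Subgroup.coe_inv, hx, hy, map_mul, map_inv]
  have hc' : ∀ x y : Nb, ⁅x, y⁆ ∈ center Nb := by
    intro x y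
    obtain ⟨u, hu, hxu⟩ := hmem x
    obtain ⟨v, hv, hyv⟩ := hmem y
    apply hcenter
    intro l hl
    rw [hcomm x y u v hxu hyv]
    exact (mk_commute_of_comm_mem (hc u hu v hv l hl)).symm
  have hexp' : ∀ x y : Nb, ⁅x, y⁆ ^ p = 1 := by
    intro x y
    obtain ⟨u, hu, hxu⟩ := hmem x
    obtain ⟨v, hv, hyv⟩ := hmem y
    apply Subtype.ext
    rw [Subgroup.coe_pow, hcomm x y u v hxu hyv, ← map_pow]
    exact (QuotientGroup.eq_one_iff _).mpr (hexp u hu v hv)
  have htriv' : ∀ x y : Nb, α a ⁅x, y⁆ = ⁅x, y⁆ := by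
    intro x y
    obtain ⟨u, hu, hxu⟩ := hmem x
    obtain ⟨v, hv, hyv⟩ := hmem y
    apply Subtype.ext
    rw [hα, hcomm x y u v hxu hyv]
    have := mk_commute_of_comm_mem (htriv u hu v hv)
    calc π a * π ⁅u, v⁆ * (π a)⁻¹ = π ⁅u, v⁆ * π a * (π a)⁻¹ := by
          have h2 : π a * π ⁅u, v⁆ = π ⁅u, v⁆ * π a := this
          rw [h2]
      _ = π ⁅u, v⁆ := by group
  -- the subgroup `S₀`
  let φ : N →* Nb := π.subgroupMap N
  have hφs : Function.Surjective φ := π.subgroupMap_surjective N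
  have hφ : ∀ u : N, ((φ u : Nb) : G ⧸ K) = π u := fun _ => rfl
  let S₀ : Subgroup Nb := (S.subgroupOf N).map φ
  have hidx : S₀.index ≤ p ^ 2 := by
    have h1 : (S.subgroupOf N).index ≤ p ^ 2 := by
      have h2 := Subgroup.card_mul_index (S.subgroupOf N)
      rw [Nat.card_congr (subgroupOfEquivOfLe hSN).toEquiv] at h2
      rw [← h2, mul_comm] at hS
      exact Nat.le_of_mul_le_mul_right hS Nat.card_pos
    have h3 : S₀.index ∣ (S.subgroupOf N).index := Subgroup.index_map_dvd _ hφs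
    have h4 : (S.subgroupOf N).index ≠ 0 := by
      intro h0
      have := Subgroup.card_mul_index (S.subgroupOf N)
      rw [h0, mul_zero] at this
      exact (Nat.card_pos (α := N)).ne' this.symm
    exact (Nat.le_of_dvd (Nat.pos_of_ne_zero h4) h3).trans h1
  have hS₀ : ∀ s ∈ S₀, α a s * s⁻¹ ∈ center Nb := by
    rintro _ ⟨⟨s, hsN⟩, hs, rfl⟩
    apply hcenter
    intro l hl
    have hs' : s ∈ S := hs
    have e1 : ((α a (φ ⟨s, hsN⟩) * (φ ⟨s, hsN⟩)⁻¹ : Nb) : G ⧸ K) = π ⁅a, s⁆ := by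
      rw [Subgroup.coe_mul, hα, Subgroup.coe_inv, hφ, commutatorElement_def]
      simp only [map_mul, map_inv]
    rw [e1]
    exact (mk_commute_of_comm_mem (hS' s hs' l hl)).symm
  -- apply `T1`
  obtain ⟨n', hn'⟩ : ∃ x : Nb, (x : G ⧸ K) = π n := ⟨⟨π n, n, hn, rfl⟩, rfl⟩
  have h := T1 (N := Nb) hp2 hq2 hqp hc' hexp' α R hR a e ha haR htriv' S₀ hidx hS₀ hr n'
  set b := a⁻¹ * (r⁻¹ * a * r) with hb
  have e2 : ((α b n' * n'⁻¹ : Nb) : G ⧸ K) = π ⁅b, n⁆ := by
    rw [Subgroup.coe_mul, hα, Subgroup.coe_inv, hn', commutatorElement_def]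
    simp only [map_mul, map_inv]
  generalize α b n' * n'⁻¹ = w at h e2
  have hcen := mem_center_iff.mp h ⟨π m, ⟨m, hm, rfl⟩⟩
  have e3 := congrArg Subtype.val hcen
  simp only [Subgroup.coe_mul, e2] at e3
  exact comm_mem_of_mk_commute e3.symm

/-- The same for subgroups that are merely normalized. -/
theorem comm_T2 (hp2 : p ≠ 2) (hq2 : q ≠ 2) (hqp : q ≠ p) (N K : Subgroup G) (hKN : K ≤ N)
    (hNK : N ≤ normalizer (K : Set G))
    (hc : ∀ n ∈ N, ∀ m ∈ N, ∀ l ∈ N, ⁅⁅n, m⁆, l⁆ ∈ K) (hexp : ∀ n ∈ N, ∀ m ∈ N, ⁅n, m⁆ ^ p ∈ K)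
    (R : Subgroup G) (hR : IsPGroup q R) (hRN : R ≤ normalizer (N : Set G))
    (hRK : R ≤ normalizer (K : Set G)) (a : G) (haN : a ∈ normalizer (N : Set G))
    (haK : a ∈ normalizer (K : Set G)) (e : ℕ) (ha : a ^ (p ^ e) = 1)
    (haR : a ∈ normalizer (R : Set G))
    (htriv : ∀ n ∈ N, ∀ m ∈ N, ⁅a, ⁅n, m⁆⁆ ∈ K)
    (S : Subgroup G) (hSN : S ≤ N) (hS : Nat.card N ≤ p ^ 2 * Nat.card S)
    (hS' : ∀ s ∈ S, ∀ m ∈ N, ⁅⁅a, s⁆, m⁆ ∈ K)
    {r : G} (hr : r ∈ R) {n m : G} (hn : n ∈ N) (hm : m ∈ N) :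
    ⁅⁅a⁻¹ * (r⁻¹ * a * r), n⁆, m⁆ ∈ K := by
  let Γ : Subgroup G := normalizer (N : Set G) ⊓ normalizer (K : Set G)
  have hNΓ : N ≤ Γ := le_inf Subgroup.le_normalizer hNK
  have hRΓ : R ≤ Γ := le_inf hRN hRK
  have haΓ : a ∈ Γ := ⟨haN, haK⟩
  have hKΓ : K ≤ Γ := hKN.trans hNΓ
  let N₁ : Subgroup Γ := N.subgroupOf Γ
  let K₁ : Subgroup Γ := K.subgroupOf Γ
  haveI hN₁ : N₁.Normal := (normal_subgroupOf_iff_le_normalizer hNΓ).mpr inf_le_left
  haveI hK₁ : K₁.Normal := (normal_subgroupOf_iff_le_normalizer hKΓ).mpr inf_le_right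
  let R₁ : Subgroup Γ := R.subgroupOf Γ
  have hR₁ : IsPGroup q R₁ := by
    intro x
    obtain ⟨k, hk⟩ := hR ⟨((x : Γ) : G), x.2⟩
    refine ⟨k, ?_⟩
    apply Subtype.ext
    apply Subtype.ext
    have := congrArg Subtype.val hk
    simpa using this
  let a₁ : Γ := ⟨a, haΓ⟩
  have ha₁ : a₁ ^ (p ^ e) = 1 := Subtype.ext (by simpa [a₁] using ha)
  have ha₁R : a₁ ∈ normalizer (R₁ : Set Γ) := by
    rw [mem_normalizer_iff]
    intro h
    show (h : G) ∈ R ↔ a * (h : G) * a⁻¹ ∈ R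
    exact mem_normalizer_iff.mp haR h
  let S₁ : Subgroup Γ := S.subgroupOf Γ
  have hS₁N : S₁ ≤ N₁ := fun x hx => hSN hx
  have hcard : Nat.card N₁ = Nat.card N := Nat.card_congr (subgroupOfEquivOfLe hNΓ).toEquiv
  have hcardS : Nat.card S₁ = Nat.card S :=
    Nat.card_congr (subgroupOfEquivOfLe (hSN.trans hNΓ)).toEquiv
  have hmemN : ∀ {x : Γ}, x ∈ N₁ → (x : G) ∈ N := fun h => h
  have := core_T1 hp2 hq2 hqp N₁ K₁
    (fun n hn m hm l hl => hc _ (hmemN hn) _ (hmemN hm) _ (hmemN hl))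
    (fun n hn m hm => hexp _ (hmemN hn) _ (hmemN hm))
    R₁ hR₁ a₁ e ha₁ ha₁R
    (fun n hn m hm => htriv _ (hmemN hn) _ (hmemN hm))
    S₁ hS₁N (by rw [hcard, hcardS]; exact hS)
    (fun s hs m hm => hS' _ hs _ (hmemN hm))
    (r := ⟨r, hRΓ hr⟩) hr (n := ⟨n, hNΓ hn⟩) (m := ⟨m, hNΓ hm⟩) hn hm
  exact this

/-- Hyperplane-type subgroups of a normal subgroup of a `p`-group. -/
theorem exists_K (T D : Subgroup G) (hT : IsPGroup p T) (hDT : D ≤ T) (hTD : T ≤ normalizer (D : Set G))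
    (hD : D ≠ ⊥) :
    ∃ K : Subgroup G, K ≤ D ∧ K ≠ D ∧ (∀ d ∈ D, ∀ t ∈ T, ⁅d, t⁆ ∈ K) ∧ ∀ d ∈ D, d ^ p ∈ K := by
  classical
  let D₁ : Subgroup T := D.subgroupOf T
  haveI hD₁ : D₁.Normal := (normal_subgroupOf_iff_le_normalizer hDT).mpr hTD
  let N₁ : Subgroup T := ⁅D₁, (⊤ : Subgroup T)⁆
  haveI hN₁ : N₁.Normal := Subgroup.commutator_normal _ _
  have hT₁ : IsPGroup p T := hT
  have hle : N₁ ≤ D₁ := by
    rw [Subgroup.commutator_le]
    intro d hd t _
    rw [commutatorElement_def]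
    have : d * t * d⁻¹ * t⁻¹ = d * (t * d⁻¹ * t⁻¹) := by group
    rw [this]
    exact D₁.mul_mem hd (hD₁.conj_mem _ (D₁.inv_mem hd) t)
  have hne : N₁ ≠ D₁ := by
    intro h
    have hbot : D₁ = ⊥ := by
      apply Cfsg.Agent.Lib.QuadAct.Replacement.eq_bot_of_le_commutator (p := p) (V := ⊤) (A := ⊤) (W := D₁)
      · exact hT₁.to_subgroup ⊤
      · intro x _
        rw [mem_normalizer_iff]
        intro h
        simp
      · intro x _
        obtain ⟨k, hk⟩ := hT₁ x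
        refine ⟨k, ?_⟩
        rw [hk]
        exact Subgroup.one_mem _
      · exact le_top
      · exact le_of_eq h.symm
    apply hD
    rw [eq_bot_iff]
    intro x hx
    have h1 : (⟨x, hDT hx⟩ : T) ∈ D₁ := hx
    rw [hbot, Subgroup.mem_bot] at h1
    have := congrArg Subtype.val h1
    simpa using this
  obtain ⟨L, hLn, hNL, hLD, hi⟩ := Cfsg.Agent.Lib.PGroups.Basic.exists_normal_relIndex_below hT₁
    (lt_of_le_of_ne hle hne)
  refine ⟨L.map T.subtype, ?_, ?_, ?_, ?_⟩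
  · rintro _ ⟨x, hx, rfl⟩
    exact hLD hx
  · intro h
    have h1 : L = D₁ := by
      ext x
      constructor
      · exact fun hx => hLD hx
      · intro hx
        have h2 : (x : G) ∈ L.map T.subtype := by
          rw [h]
          exact hx
        obtain ⟨y, hy, hyx⟩ := h2
        have : y = x := Subtype.ext hyx
        rwa [← this]
    rw [h1, relIndex_self] at hi
    exact hp.out.one_lt.ne hi
  · intro d hd t ht
    refine ⟨⁅(⟨d, hDT hd⟩ : T), ⟨t, ht⟩⁆, hNL (Subgroup.commutator_mem_commutator hd (mem_top _)), ?_⟩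
    rfl
  · intro d hd
    have hnorm : (L.subgroupOf D₁).Normal := inferInstance
    have hidx : (L.subgroupOf D₁).index = p := hi
    have h1 := Subgroup.pow_index_mem (L.subgroupOf D₁) (⟨⟨d, hDT hd⟩, hd⟩ : D₁)
    rw [hidx] at h1
    refine ⟨⟨d, hDT hd⟩ ^ p, ?_, by simp⟩
    have h2 : (((⟨⟨d, hDT hd⟩, hd⟩ : D₁) ^ p : D₁) : T) ∈ L := h1
    simpa using h2

/-- An element of `N` centralizing `R` centralizes `N`, if `N = [N, R]` and `R` centralizes `[N, N]`. -/
theorem central_of_fixed {N R : Subgroup G} (hNR : ⁅N, R⁆ = N) (hRD : R ≤ centralizer ((⁅N, N⁆ : Subgroup G) : Set G))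
    {t : G} (ht : t ∈ N) (htR : ∀ r ∈ R, r * t = t * r) (hRN : R ≤ normalizer (N : Set G)) {m : G} (hm : m ∈ N) :
    t * m = m * t := by
  have hle : ⁅N, R⁆ ≤ centralizer ({t} : Set G) := by
    rw [Subgroup.commutator_le]
    intro n hn r hr
    rw [mem_centralizer_iff]
    intro t' ht'
    rw [Set.mem_singleton_iff.mp ht']
    -- `[t, n⁻¹]` is centralized by `r`
    have h1 : ⁅t, n⁻¹⁆ ∈ (⁅N, N⁆ : Subgroup G) := Subgroup.commutator_mem_commutator ht (N.inv_mem hn)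
    have h2 := mem_centralizer_iff.mp (hRD hr) _ h1
    -- conjugate `r n⁻¹ r⁻¹` has the same commutator with `t`
    have hr1 : r * t * r⁻¹ = t := by rw [htR r hr]; group
    have hr2 : r⁻¹ * t * r = t := by
      calc r⁻¹ * t * r = r⁻¹ * (t * r) := by group
        _ = r⁻¹ * (r * t) := by rw [htR r hr]
        _ = t := by group
    have h3 : ⁅t, r * n⁻¹ * r⁻¹⁆ = ⁅t, n⁻¹⁆ := by
      have e : ⁅t, r * n⁻¹ * r⁻¹⁆ = r * ⁅r⁻¹ * t * r, n⁻¹⁆ * r⁻¹ := by
        simp only [commutatorElement_def]; group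
      rw [e, hr2]
      have h2' : r * ⁅t, n⁻¹⁆ = ⁅t, n⁻¹⁆ * r := h2.symm
      rw [h2']
      group
    -- now compute
    have h4 : ⁅t, n * (r * n⁻¹ * r⁻¹)⁆ = 1 := by
      have e : ⁅t, n * (r * n⁻¹ * r⁻¹)⁆ = ⁅t, n⁆ * (n * ⁅t, r * n⁻¹ * r⁻¹⁆ * n⁻¹) := by
        simp only [commutatorElement_def]; group
      rw [e, h3]
      simp only [commutatorElement_def]
      group
    have h5 : n * (r * n⁻¹ * r⁻¹) = ⁅n, r⁆ := by
      simp only [commutatorElement_def]; group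
    rw [h5] at h4
    have h6 := commutatorElement_eq_one_iff_commute.mp h4
    exact h6.eq
  rw [hNR] at hle
  have := mem_centralizer_iff.mp (hle hm) t rfl
  exact this

/-- **The abstract core of the key lemma.** -/
theorem AL (hodd : Odd (Nat.card G)) (hqp : q ≠ p)
    (V : Subgroup G) (hVn : V.Normal) (hVp : IsPGroup p V) (hVC : centralizer (V : Set G) ≤ V)
    (A : Subgroup G) (hAp : IsPGroup p A) (hAc : ∀ a ∈ A, ∀ b ∈ A, a * b = b * a)
    (R : Subgroup G) (hRq : IsPGroup q R) (hAR : A ≤ normalizer (R : Set G))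
    (W₀ : Subgroup G) (hW₀V : W₀ ≤ V) (hidx : Nat.card V ≤ p ^ 2 * Nat.card W₀)
    (hW₀A : W₀ ≤ normalizer (A : Set G))
    (hCVA : ∀ v ∈ V, (∀ a ∈ A, v * a = a * v) → v ∈ A) : R = ⊥ := by
  classical
  by_contra hRne
  have hdisj : Disjoint V R := IsPGroup.disjoint_of_ne p q hqp.symm V R hVp hRq
  have hVR : ∀ x ∈ V, x ∈ R → x = 1 := by
    intro x hx hxR
    exact Subgroup.disjoint_def.mp hdisj hx hxR
  -- parity
  have hq2 : q ≠ 2 := by
    rintro rfl
    obtain ⟨k, hk⟩ := IsPGroup.iff_card.mp hRq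
    have hk0 : k ≠ 0 := by
      rintro rfl
      apply hRne
      rw [pow_zero] at hk
      exact (Subgroup.card_eq_one).mp hk
    have h1 : 2 ∣ Nat.card R := by
      rw [hk]
      exact dvd_pow_self 2 hk0
    have h2 : 2 ∣ Nat.card G := h1.trans (Subgroup.card_subgroup_dvd_card R)
    exact (Nat.not_even_iff_odd.mpr hodd) (even_iff_two_dvd.mpr h2)
  have hVne : V ≠ ⊥ := by
    rintro rfl
    apply hRne
    have h1 : (⊤ : Subgroup G) ≤ ⊥ := by
      refine le_trans ?_ hVC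
      intro x _
      rw [mem_centralizer_iff]
      intro h hh
      have : h = 1 := hh
      rw [this]
      simp
    rw [eq_bot_iff]
    exact le_trans le_top h1
  have hp2 : p ≠ 2 := by
    rintro rfl
    obtain ⟨k, hk⟩ := IsPGroup.iff_card.mp hVp
    have hk0 : k ≠ 0 := by
      rintro rfl
      apply hVne
      rw [pow_zero] at hk
      exact (Subgroup.card_eq_one).mp hk
    have h1 : 2 ∣ Nat.card V := by
      rw [hk]
      exact dvd_pow_self 2 hk0
    have h2 : 2 ∣ Nat.card G := h1.trans (Subgroup.card_subgroup_dvd_card V)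
    exact (Nat.not_even_iff_odd.mpr hodd) (even_iff_two_dvd.mpr h2)
  have hnormV : ∀ g : G, g ∈ normalizer (V : Set G) := by
    intro g
    rw [mem_normalizer_iff]
    intro h
    exact ⟨fun hh => hVn.conj_mem h hh g, fun hh => by
      have := hVn.conj_mem _ hh g⁻¹
      simpa [mul_assoc] using this⟩
  have hAnR : ∀ a ∈ A, ∀ r ∈ R, a * r * a⁻¹ ∈ R := fun a ha r hr =>
    (mem_normalizer_iff.mp (hAR ha) r).mp hr
  -- Step 1
  have h1 : ∀ v ∈ V, v ∈ A → ∀ r ∈ R, v * r = r * v := by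
    intro v hv hvA r hr
    have hcR : v * r * v⁻¹ * r⁻¹ ∈ R := R.mul_mem (hAnR v hvA r hr) (R.inv_mem hr)
    have hcV : v * r * v⁻¹ * r⁻¹ ∈ V := by
      have : v * r * v⁻¹ * r⁻¹ = v * (r * v⁻¹ * r⁻¹) := by group
      rw [this]
      exact V.mul_mem hv (hVn.conj_mem _ (V.inv_mem hv) r)
    have h0 := hVR _ hcV hcR
    have : v * r = (v * r * v⁻¹ * r⁻¹) * (r * v) := by group
    rw [this, h0, one_mul]
  -- Step 2
  have h2 : ∀ r ∈ R, (∀ a ∈ A, a * r = r * a) → r = 1 := by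
    intro r hr hra
    have hcop : (orderOf r).Coprime p := by
      obtain ⟨k, hk⟩ := hRq ⟨r, hr⟩
      have h3 : r ^ q ^ k = 1 := by
        have := congrArg Subtype.val hk
        simpa using this
      have h4 : orderOf r ∣ q ^ k := orderOf_dvd_of_pow_eq_one h3
      exact Nat.Coprime.coprime_dvd_left h4
        (Nat.Coprime.pow_left _ ((Nat.coprime_primes hq.out hp.out).mpr hqp))
    have h3 := Cfsg.Agent.Lib.CharP.Basic.thompson_AB V A hVp hAp
      (fun a _ x hx => hVn.conj_mem x hx a)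
      r (fun x hx => hVn.conj_mem x hx r) (fun a ha => (hra a ha).symm) hcop
      (fun x hx hxa => by
        have hxA := hCVA x hx (fun a ha => (hxa a ha).symm)
        exact (h1 x hx hxA r hr).symm)
    have h4 : r ∈ V := hVC (mem_centralizer_iff.mpr fun x hx => (h3 x hx).symm)
    exact hVR r h4 hr
  -- Step 3: minimal `N`
  let fam : Subgroup G → Prop := fun N => N ≤ V ∧ A ≤ normalizer (N : Set G) ∧ R ≤ normalizer (N : Set G) ∧
    ¬ R ≤ centralizer (N : Set G)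
  have hfamV : fam V := by
    refine ⟨le_rfl, fun a _ => hnormV a, fun r _ => hnormV r, ?_⟩
    intro h
    apply hRne
    rw [eq_bot_iff]
    intro x hx
    rw [Subgroup.mem_bot]
    exact hVR x (hVC (h hx)) hx
  obtain ⟨N, -, hNmin⟩ := Finite.exists_le_minimal hfamV
  obtain ⟨hNV, hAN, hRN, hRNc⟩ := hNmin.prop
  have hmin' : ∀ N' : Subgroup G, N' ≤ N → A ≤ normalizer (N' : Set G) → R ≤ normalizer (N' : Set G) →
      N' ≠ N → R ≤ centralizer (N' : Set G) := by
    intro N' hle hA' hR' hne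
    by_contra hcon
    exact hne (le_antisymm hle (hNmin.le_of_le ⟨hle.trans hNV, hA', hR', hcon⟩ hle))
  have hNp : IsPGroup p N := hVp.to_le hNV
  have hcop : (Nat.card R).Coprime (Nat.card N) := by
    obtain ⟨k, hk⟩ := IsPGroup.iff_card.mp hRq
    obtain ⟨l, hl⟩ := IsPGroup.iff_card.mp hNp
    rw [hk, hl]
    exact Nat.Coprime.pow _ _ ((Nat.coprime_primes hq.out hp.out).mpr hqp)
  have hRsolv : Group.IsSolvable R := by
    haveI := hRq.isNilpotent
    infer_instance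
  have hNeq : ⁅N, R⁆ = N := by
    by_contra hne
    have hle : ⁅N, R⁆ ≤ N := commutator_le_of_le_normalizer hRN
    have h3 := hmin' ⁅N, R⁆ hle (le_normalizer_commutator_of_le hAN hAR) (le_normalizer_commutator_right N R) hne
    have h4 : ⁅⁅N, R⁆, R⁆ = ⁅N, R⁆ := commutator_commutator_eq hRN hcop (Or.inl hRsolv)
    have h5 : ⁅⁅N, R⁆, R⁆ = ⊥ := by
      rw [Subgroup.commutator_comm]
      exact Subgroup.commutator_eq_bot_iff_le_centralizer.mpr h3
    rw [h5] at h4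
    apply hRNc
    have h6 : ⁅R, N⁆ = ⊥ := by rw [Subgroup.commutator_comm]; exact h4.symm
    exact Subgroup.commutator_eq_bot_iff_le_centralizer.mp h6
  have hNbot : N ≠ ⊥ := by
    rintro rfl
    apply hRNc
    intro x _
    rw [mem_centralizer_iff]
    intro h hh
    have : h = 1 := hh
    rw [this]
    simp
  -- the derived subgroup
  set D : Subgroup G := ⁅N, N⁆ with hDdef
  have hNnorm : N ≤ normalizer (N : Set G) := Subgroup.le_normalizer
  have hDN : D ≤ N := commutator_le_of_le_normalizer hNnorm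
  have hDne : D ≠ N := by
    intro h
    apply hNbot
    apply Cfsg.Agent.Lib.QuadAct.Replacement.eq_bot_of_le_commutator (p := p) (V := N) (A := N) (W := N)
    · exact hNp
    · exact hNnorm
    · intro a ha
      obtain ⟨k, hk⟩ := hNp ⟨a, ha⟩
      refine ⟨k, ?_⟩
      have h3 : a ^ p ^ k = 1 := by
        have := congrArg Subtype.val hk
        simpa using this
      rw [h3]
      exact Subgroup.one_mem _
    · exact le_rfl
    · exact le_of_eq h.symm
  have hAD : A ≤ normalizer (D : Set G) := le_normalizer_commutator_of_le hAN hAN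
  have hRD : R ≤ normalizer (D : Set G) := le_normalizer_commutator_of_le hRN hRN
  have hRDc : R ≤ centralizer (D : Set G) := hmin' D hDN hAD hRD hDne
  -- the `p`-group `T = A N`
  set T : Subgroup G := A ⊔ N with hTdef
  have hTp : IsPGroup p T := hAp.to_sup_of_normal_right' hNp hAN
  have hAT : A ≤ T := le_sup_left
  have hNT : N ≤ T := le_sup_right
  have hTN : T ≤ normalizer (N : Set G) := sup_le hAN hNnorm
  have hTD : T ≤ normalizer (D : Set G) := le_normalizer_commutator_of_le hTN hTN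
  -- fixed points of `A` in `N`
  have hcen : ∀ t ∈ N, (∀ a ∈ A, t * a = a * t) → ∀ m ∈ N, t * m = m * t := by
    intro t ht hta m hm
    have htA := hCVA t (hNV ht) hta
    exact central_of_fixed hNeq hRDc ht (fun r hr => (h1 t (hNV ht) htA r hr).symm) hRN hm
  by_cases hDbot : D = ⊥
  · -- abelian case
    have hNab : ∀ x y : N, x * y = y * x := by
      intro x y
      have h3 : ⁅(x : G), (y : G)⁆ ∈ D := Subgroup.commutator_mem_commutator x.2 y.2
      rw [hDbot, Subgroup.mem_bot] at h3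
      exact Subtype.ext (commutatorElement_eq_one_iff_commute.mp h3).eq
    haveI : IsMulCommutative N := ⟨⟨fun x y => hNab x y⟩⟩
    -- fixed point of `A` on `N`
    haveI hTnil : Group.IsNilpotent T := hTp.isNilpotent
    have hN₁ : (N.subgroupOf T).Normal := (normal_subgroupOf_iff_le_normalizer hNT).mpr hTN
    have hne₁ : (⊥ : Subgroup T) ≠ N.subgroupOf T := by
      intro h
      apply hNbot
      rw [eq_bot_iff]
      intro x hx
      have h3 : (⟨x, hNT hx⟩ : T) ∈ N.subgroupOf T := hx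
      rw [← h, Subgroup.mem_bot] at h3
      have := congrArg Subtype.val h3
      simpa using this
    obtain ⟨z, hz, hz1, hzc⟩ := Cfsg.Agent.Lib.CharP.Basic.exists_central_mod (N.subgroupOf T) ⊥ hN₁ bot_le hne₁
    have hzN : (z : G) ∈ N := hz
    have hz0 : (z : G) ≠ 1 := by
      intro h
      apply hz1
      rw [Subgroup.mem_bot]
      exact Subtype.ext h
    have hza : ∀ a ∈ A, (z : G) * a = a * z := by
      intro a ha
      have h3 := hzc ⟨a, hAT ha⟩
      rw [Subgroup.mem_bot] at h3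
      have h4 := commutatorElement_eq_one_iff_commute.mp h3
      exact congrArg Subtype.val h4.eq
    have hzA := hCVA z (hNV hzN) hza
    have hzR := h1 z (hNV hzN) hzA
    have h3 := Cfsg.Agent.Lib.Coprime.Abelian.inf_commutator_eq_bot (A := R) (V := N) hRN hcop
    have h4 : (z : G) ∈ (N ⊓ centralizer (R : Set G)) ⊓ ⁅N, R⁆ := by
      refine ⟨⟨hzN, Subgroup.mem_centralizer_iff.mpr fun r hr => (hzR r hr).symm⟩, ?_⟩
      rw [hNeq]
      exact hzN
    rw [h3, Subgroup.mem_bot] at h4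
    exact hz0 h4
  -- the non-abelian case
  obtain ⟨K, hKD, hKne, hKc, hKp⟩ := exists_K T D hTp (hDN.trans hNT) hTD hDbot
  have hKN : K ≤ N := hKD.trans hDN
  have hTK : T ≤ normalizer (K : Set G) := by
    rw [Subgroup.le_normalizer_iff]
    intro t ht k hk
    have h3 := hKc k (hKD hk) t ht
    have e : t * k * t⁻¹ = ⁅k, t⁆⁻¹ * k := by
      simp only [commutatorElement_def]; group
    rw [e]
    exact K.mul_mem (K.inv_mem h3) hk
  have hRK : R ≤ normalizer (K : Set G) := by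
    rw [Subgroup.le_normalizer_iff]
    intro r hr k hk
    have h3 := mem_centralizer_iff.mp (hRDc hr) k (hKD hk)
    have e : r * k * r⁻¹ = k := by
      rw [← h3]
      group
    rw [e]
    exact hk
  have hNK : N ≤ normalizer (K : Set G) := hNT.trans hTK
  have hAK : A ≤ normalizer (K : Set G) := hAT.trans hTK
  -- the index bound
  have hcardS : Nat.card N ≤ p ^ 2 * Nat.card (N ⊓ W₀ : Subgroup G) := by
    have h3 : (W₀.subgroupOf V).index ≤ p ^ 2 := by
      have h4 := Subgroup.card_mul_index (W₀.subgroupOf V)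
      rw [Nat.card_congr (subgroupOfEquivOfLe hW₀V).toEquiv] at h4
      rw [← h4, mul_comm] at hidx
      exact Nat.le_of_mul_le_mul_right hidx Nat.card_pos
    have h5 : ((N ⊓ W₀).subgroupOf N).index ≤ (W₀.subgroupOf V).index := by
      have e1 : ((N ⊓ W₀).subgroupOf N).index = W₀.relIndex N := by
        have e2 : ((N ⊓ W₀).subgroupOf N).index = (N ⊓ W₀).relIndex N := rfl
        rw [e2, inf_comm]
        exact Subgroup.inf_relIndex_right W₀ N
      rw [e1]
      have hne0 : W₀.relIndex V ≠ 0 := by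
        intro h0
        have h00 : (W₀.subgroupOf V).index = 0 := h0
        have := Subgroup.card_mul_index (W₀.subgroupOf V)
        rw [h00, mul_zero] at this
        exact (Nat.card_pos (α := V)).ne' this.symm
      exact Subgroup.relIndex_le_of_le_right hNV hne0
    have h6 := Subgroup.card_mul_index ((N ⊓ W₀).subgroupOf N)
    rw [Nat.card_congr (subgroupOfEquivOfLe (inf_le_left : N ⊓ W₀ ≤ N)).toEquiv] at h6
    rw [← h6, mul_comm]
    exact Nat.mul_le_mul_right _ (h5.trans h3)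
  -- apply the core
  have hT2 : ∀ a ∈ A, ∀ r ∈ R, ∀ n ∈ N, ∀ m ∈ N, ⁅⁅a⁻¹ * (r⁻¹ * a * r), n⁆, m⁆ ∈ K := by
    intro a ha r hr n hn m hm
    obtain ⟨e, he⟩ := hAp ⟨a, ha⟩
    have he' : a ^ p ^ e = 1 := by
      have := congrArg Subtype.val he
      simpa using this
    refine comm_T2 hp2 hq2 hqp N K hKN hNK
      (fun n hn m hm l hl => hKc _ (Subgroup.commutator_mem_commutator hn hm) _ (hNT hl))
      (fun n hn m hm => hKp _ (Subgroup.commutator_mem_commutator hn hm))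
      R hRq hRN hRK a (hAN ha) (hAK ha) e he' (hAR ha)
      (fun n hn m hm => ?_) (N ⊓ W₀) inf_le_left hcardS (fun s hs m hm => ?_) hr hn hm
    · have h3 := hKc _ (Subgroup.commutator_mem_commutator hn hm) a (hAT ha)
      have e1 : ⁅a, ⁅n, m⁆⁆ = ⁅⁅n, m⁆, a⁆⁻¹ := (commutatorElement_inv _ _).symm
      rw [e1]
      exact K.inv_mem h3
    · -- `[a, s] ∈ A ∩ N`
      have hsN : s ∈ N := hs.1
      have hsW : s ∈ W₀ := hs.2
      have hcA : ⁅a, s⁆ ∈ A := by
        have e1 : ⁅a, s⁆ = a * (s * a⁻¹ * s⁻¹) := by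
          simp only [commutatorElement_def]; group
        rw [e1]
        exact A.mul_mem ha ((mem_normalizer_iff.mp (hW₀A hsW) _).mp (A.inv_mem ha))
      have hcN : ⁅a, s⁆ ∈ N := by
        have e1 : ⁅a, s⁆ = (a * s * a⁻¹) * s⁻¹ := by
          simp only [commutatorElement_def]
        rw [e1]
        exact N.mul_mem ((mem_normalizer_iff.mp (hAN ha) _).mp hsN) (N.inv_mem hsN)
      have hcc := hcen _ hcN (fun b hb => hAc _ hcA _ hb) m hm
      rw [commutatorElement_eq_one_iff_commute.mpr hcc]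
      exact K.one_mem
  -- the subgroup `Z`
  let Z : Subgroup G :=
    { carrier := {n | n ∈ N ∧ ∀ m ∈ N, ⁅n, m⁆ ∈ K}
      one_mem' := ⟨N.one_mem, fun m _ => by rw [commutatorElement_one_left]; exact K.one_mem⟩
      mul_mem' := by
        rintro x y ⟨hx, hxK⟩ ⟨hy, hyK⟩
        refine ⟨N.mul_mem hx hy, fun m hm => ?_⟩
        have e1 : ⁅x * y, m⁆ = (x * ⁅y, m⁆ * x⁻¹) * ⁅x, m⁆ := by
          simp only [commutatorElement_def]; group
        rw [e1]
        exact K.mul_mem ((mem_normalizer_iff.mp (hNK hx) _).mp (hyK m hm)) (hxK m hm)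
      inv_mem' := by
        rintro x ⟨hx, hxK⟩
        refine ⟨N.inv_mem hx, fun m hm => ?_⟩
        have e1 : ⁅x⁻¹, m⁆ = x⁻¹ * ⁅x, m⁆⁻¹ * x⁻¹⁻¹ := by
          simp only [commutatorElement_def]; group
        rw [e1]
        exact (mem_normalizer_iff.mp (hNK (N.inv_mem hx)) _).mp (K.inv_mem (hxK m hm)) }
  have hZmem : ∀ {x : G}, x ∈ Z ↔ x ∈ N ∧ ∀ m ∈ N, ⁅x, m⁆ ∈ K := Iff.rfl
  have hZconj : ∀ g : G, g ∈ normalizer (N : Set G) → g ∈ normalizer (K : Set G) → ∀ x ∈ Z, g * x * g⁻¹ ∈ Z := by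
    rintro g hgN hgK x ⟨hx, hxK⟩
    refine ⟨(mem_normalizer_iff.mp hgN _).mp hx, fun m hm => ?_⟩
    have e1 : ⁅g * x * g⁻¹, m⁆ = g * ⁅x, g⁻¹ * m * g⁻¹⁻¹⁆ * g⁻¹ := by
      simp only [commutatorElement_def]; group
    rw [e1]
    have h3 : g⁻¹ * m * g⁻¹⁻¹ ∈ N := (mem_normalizer_iff.mp (Subgroup.inv_mem _ hgN) _).mp hm
    exact (mem_normalizer_iff.mp hgK _).mp (hxK _ h3)
  -- the subgroup `C_W`
  have hRnorm : ∀ r ∈ R, r ∈ normalizer (N : Set G) ∧ r ∈ normalizer (K : Set G) :=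
    fun r hr => ⟨hRN hr, hRK hr⟩
  let CW : Subgroup G :=
    { carrier := {g | g ∈ R ∧ ∀ n ∈ N, ⁅g, n⁆ ∈ Z}
      one_mem' := ⟨R.one_mem, fun n _ => by rw [commutatorElement_one_left]; exact Z.one_mem⟩
      mul_mem' := by
        rintro g h ⟨hg, hgZ⟩ ⟨hh, hhZ⟩
        refine ⟨R.mul_mem hg hh, fun n hn => ?_⟩
        have e1 : ⁅g * h, n⁆ = (g * ⁅h, n⁆ * g⁻¹) * ⁅g, n⁆ := by
          simp only [commutatorElement_def]; group
        rw [e1]
        exact Z.mul_mem (hZconj g (hRN hg) (hRK hg) _ (hhZ n hn)) (hgZ n hn)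
      inv_mem' := by
        rintro g ⟨hg, hgZ⟩
        refine ⟨R.inv_mem hg, fun n hn => ?_⟩
        have e1 : ⁅g⁻¹, n⁆ = g⁻¹ * ⁅g, n⁆⁻¹ * g⁻¹⁻¹ := by
          simp only [commutatorElement_def]; group
        rw [e1]
        exact hZconj g⁻¹ (Subgroup.inv_mem _ (hRN hg)) (Subgroup.inv_mem _ (hRK hg)) _ (Z.inv_mem (hgZ n hn)) }
  have hCWconj : ∀ x : G, x ∈ normalizer (N : Set G) → x ∈ normalizer (K : Set G) → x ∈ normalizer (R : Set G) →
      ∀ g ∈ CW, x * g * x⁻¹ ∈ CW := by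
    rintro x hxN hxK hxR g ⟨hg, hgZ⟩
    refine ⟨(mem_normalizer_iff.mp hxR _).mp hg, fun n hn => ?_⟩
    have e1 : ⁅x * g * x⁻¹, n⁆ = x * ⁅g, x⁻¹ * n * x⁻¹⁻¹⁆ * x⁻¹ := by
      simp only [commutatorElement_def]; group
    rw [e1]
    have h3 : x⁻¹ * n * x⁻¹⁻¹ ∈ N := (mem_normalizer_iff.mp (Subgroup.inv_mem _ hxN) _).mp hn
    exact hZconj x hxN hxK _ (hgZ _ h3)
  have hAsolv : Group.IsSolvable A := by
    haveI := hAp.isNilpotent
    infer_instance
  have hcopAR : (Nat.card A).Coprime (Nat.card R) := by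
    obtain ⟨k, hk⟩ := IsPGroup.iff_card.mp hRq
    obtain ⟨l, hl⟩ := IsPGroup.iff_card.mp hAp
    rw [hk, hl]
    exact Nat.Coprime.pow _ _ ((Nat.coprime_primes hp.out hq.out).mpr hqp.symm)
  have hRCW : R ≤ CW := by
    intro k hk
    have hRCWn : R ≤ normalizer (CW : Set G) := by
      rw [Subgroup.le_normalizer_iff]
      intro r hr g hg
      exact hCWconj r (hRN hr) (hRK hr) (Subgroup.le_normalizer hr) g hg
    have hACWn : A ≤ normalizer (CW : Set G) := by
      rw [Subgroup.le_normalizer_iff]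
      intro a ha g hg
      exact hCWconj a (hAN ha) (hAK ha) (hAR ha) g hg
    obtain ⟨c, ⟨hcR, hcC⟩, hkc⟩ := exists_fixed_of_fixed_mod (A := A) (K := R) CW hAR hcopAR (Or.inl hAsolv)
      (fun g hg => hg.1) hRCWn hACWn hk (by
        intro a ha
        refine ⟨R.mul_mem (hAnR a ha k hk) (R.inv_mem hk), fun n hn => ⟨?_, fun m hm => ?_⟩⟩
        · -- in `N`
          have e1 : ⁅a * k * a⁻¹ * k⁻¹, n⁆ = ((a * k * a⁻¹ * k⁻¹) * n * (a * k * a⁻¹ * k⁻¹)⁻¹) * n⁻¹ := by
            simp only [commutatorElement_def]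
          rw [e1]
          refine N.mul_mem ?_ (N.inv_mem hn)
          exact (mem_normalizer_iff.mp (hRN (R.mul_mem (hAnR a ha k hk) (R.inv_mem hk))) _).mp hn
        · have h3 := hT2 a⁻¹ (A.inv_mem ha) k⁻¹ (R.inv_mem hk) n hn m hm
          have e1 : a⁻¹⁻¹ * (k⁻¹⁻¹ * a⁻¹ * k⁻¹) = a * k * a⁻¹ * k⁻¹ := by group
          rwa [e1] at h3)
    have hc1 : c = 1 := h2 c hcR (fun a ha => (mem_centralizer_iff.mp hcC a ha))
    rw [hc1, mul_one] at hkc
    have := CW.inv_mem hkc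
    rwa [inv_inv] at this
  -- conclusion
  have hNZ : N ≤ Z := by
    rw [← hNeq, Subgroup.commutator_le]
    intro n hn r hr
    have h3 := (hRCW hr).2 n hn
    have e1 : ⁅n, r⁆ = ⁅r, n⁆⁻¹ := (commutatorElement_inv _ _).symm
    rw [e1]
    exact Z.inv_mem h3
  apply hKne
  apply le_antisymm hKD
  rw [hDdef, Subgroup.commutator_le]
  intro n hn m hm
  exact (hNZ hn).2 m hm

end Cfsg.Agent.Lib.CaseTh.ThomAL
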