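/-
The key lemma for Thompson's transitivity theorem.
-/
import Cfsg.Agent.Lib.CaseTh.ThomAL
import Cfsg.Agent.Lib.CaseTh.SolvableCharP
import Cfsg.Agent.Lib.Core.Basic

set_option autoImplicit false

namespace Cfsg.Agent.Lib.CaseTh.ThomKey

open Subgroup Cfsg Cfsg.Agent.Lib.Core.Basic Cfsg.Agent.Lib.CaseTh.ThomAL

universe u

variable {p q : ℕ} [hp : Fact p.Prime] [hq : Fact q.Prime]

/-- A `p`-subgroup of the image of a surjection with `p'`-kernel lifts. -/
theorem exists_lift {M G : Type*} [Group M] [Finite M] [Group G] (π : M →* G)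
    (hπ : Function.Surjective π) (hker : ∀ x ∈ π.ker, (orderOf x).Coprime p)
    (A' : Subgroup M) (hA' : IsPGroup p A') (W : Subgroup G) (hW : IsPGroup p W)
    (hAW : A'.map π ≤ W) :
    ∃ S : Subgroup M, IsPGroup p S ∧ A' ≤ S ∧ S.map π = W := by
  classical
  haveI : Finite G := Finite.of_surjective π hπ
  let T : Subgroup M := W.comap π
  have hAT : A' ≤ T := fun a ha => hAW ⟨a, ha, rfl⟩
  have hA'' : IsPGroup p (A'.subgroupOf T) := by
    intro x
    obtain ⟨k, hk⟩ := hA' ⟨((x : T) : M), x.2⟩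
    refine ⟨k, ?_⟩
    apply Subtype.ext
    apply Subtype.ext
    have := congrArg Subtype.val hk
    simpa using this
  obtain ⟨S₀, hS₀⟩ := hA''.exists_le_sylow
  let S : Subgroup M := (S₀ : Subgroup T).map T.subtype
  have hSp : IsPGroup p S := S₀.2.map _
  refine ⟨S, hSp, ?_, ?_⟩
  · intro a ha
    exact ⟨⟨a, hAT ha⟩, (Subgroup.map_subgroupOf_eq_of_le hAT ▸ hS₀ : A'.subgroupOf T ≤ _) (show (⟨a, hAT ha⟩ : T) ∈ A'.subgroupOf T from ha), rfl⟩
  · have hle : S.map π ≤ W := by
      rintro _ ⟨_, ⟨x, _, rfl⟩, rfl⟩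
      exact x.2
    have hinj : Function.Injective (π.comp S.subtype) := by
      rw [injective_iff_map_eq_one]
      rintro ⟨x, hx⟩ hx1
      apply Subtype.ext
      have h1 : x ∈ π.ker := hx1
      have h2 := hker x h1
      obtain ⟨k, hk⟩ := hSp ⟨x, hx⟩
      have h3 : x ^ p ^ k = 1 := by
        have := congrArg Subtype.val hk
        simpa using this
      have h4 : orderOf x ∣ p ^ k := orderOf_dvd_of_pow_eq_one h3
      have h5 : (orderOf x).Coprime (p ^ k) := Nat.Coprime.pow_right _ h2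
      have h6 : orderOf x = 1 := Nat.Coprime.eq_one_of_dvd h5 h4
      exact orderOf_eq_one_iff.mp h6
    have hcard : Nat.card (S.map π) = Nat.card S := by
      have e : S.map π = (π.comp S.subtype).range := by
        ext y
        constructor
        · rintro ⟨x, hx, rfl⟩
          exact ⟨⟨x, hx⟩, rfl⟩
        · rintro ⟨⟨x, hx⟩, rfl⟩
          exact ⟨x, hx, rfl⟩
      rw [e]
      exact (Nat.card_congr (MonoidHom.ofInjective hinj).toEquiv).symm
    obtain ⟨n, hn⟩ := IsPGroup.iff_card.mp hW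
    have hdvd : Nat.card W ∣ Nat.card T :=
      Core.Basic.card_dvd_of_surjective (π.subgroupComap W) (π.subgroupComap_surjective_of_surjective W hπ)
    have h1 : p ^ n ∣ Nat.card T := hn ▸ hdvd
    have h2 : p ^ n ∣ Nat.card S₀ := S₀.pow_dvd_card_of_pow_dvd_card h1
    have h3 : Nat.card S = Nat.card S₀ := by
      have : Nat.card ((S₀ : Subgroup T).map T.subtype) = Nat.card S₀ :=
        Nat.card_congr (Subgroup.equivMapOfInjective _ _ T.subtype_injective).symm.toEquiv
      exact this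
    have h4 : Nat.card W ≤ Nat.card (S.map π) := by
      rw [hcard, h3, hn]
      exact Nat.le_of_dvd Nat.card_pos h2
    exact Subgroup.eq_of_le_of_card_ge hle h4

/-- A `p`-element of a subgroup containing a Sylow subgroup can be conjugated into the Sylow subgroup. -/
theorem exists_conj_mem {X : Type*} [Group X] [Finite X] (P : Sylow p X) (N : Subgroup X)
    (hPN : (P : Subgroup X) ≤ N) (x : X) (hxN : x ∈ N) {k : ℕ} (hx : x ^ p ^ k = 1) :
    ∃ g ∈ N, g * x * g⁻¹ ∈ (P : Subgroup X) := by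
  classical
  let P₂ : Sylow p N := P.subtype hPN
  have hy : (⟨x, hxN⟩ : N) ^ p ^ k = 1 := Subtype.ext (by simpa using hx)
  have hp' : IsPGroup p (zpowers (⟨x, hxN⟩ : N)) := by
    rintro ⟨z, n, rfl⟩
    refine ⟨k, ?_⟩
    apply Subtype.ext
    show ((⟨x, hxN⟩ : N) ^ n) ^ p ^ k = 1
    rw [← zpow_natCast, ← zpow_mul, mul_comm, zpow_mul, zpow_natCast, hy, one_zpow]
  obtain ⟨Q, hQ⟩ := hp'.exists_le_sylow
  obtain ⟨g, hg⟩ := MulAction.exists_smul_eq N Q P₂
  refine ⟨g, g.2, ?_⟩
  have h1 : (⟨x, hxN⟩ : N) ∈ (Q : Subgroup N) := hQ (mem_zpowers _)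
  have h2 : g * (⟨x, hxN⟩ : N) * g⁻¹ ∈ ((P₂ : Subgroup N) : Set N) := by
    rw [← hg]
    exact Set.smul_mem_smul_set (a := MulAut.conj g) h1
  have h3 : g * (⟨x, hxN⟩ : N) * g⁻¹ ∈ (P : Subgroup X).subgroupOf N := by
    rw [← Sylow.coe_subtype P hPN]
    exact h2
  exact h3

/-- **The key lemma**: `A`-invariant `q`-subgroups of `C(t)` lie in `O_{p'}(C(t))`. -/
theorem key_lemma {X : Type u} [Group X] [Finite X] (hX : Odd (Nat.card X)) (hqp : q ≠ p)
    (hloc : ∀ T : Subgroup X, IsPGroup p T → T ≠ ⊥ → Group.IsSolvable (normalizer (T : Set X)))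
    (P : Sylow p X) (A : Subgroup X) (hAP : A ≤ P) (hPA : (P : Subgroup X) ≤ normalizer (A : Set X))
    (hAc : ∀ a ∈ A, ∀ b ∈ A, a * b = b * a)
    (hCA : (P : Subgroup X) ⊓ centralizer (A : Set X) = A)
    (t : X) (ht : t ∈ A) (ht1 : t ≠ 1)
    (hidx : Nat.card P ≤ p ^ 2 * Nat.card ((P : Subgroup X) ⊓ centralizer ({t} : Set X) : Subgroup X))
    (R : Subgroup X) (hRq : IsPGroup q R) (hRt : R ≤ centralizer ({t} : Set X))
    (hAR : A ≤ normalizer (R : Set X)) :
    R ≤ (pPrimeCore p (centralizer ({t} : Set X) : Subgroup X)).map (centralizer ({t} : Set X) : Subgroup X).subtype := by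
  classical
  set M : Subgroup X := centralizer ({t} : Set X) with hMdef
  have hAM : A ≤ M := by
    intro a ha
    rw [hMdef, mem_centralizer_iff]
    intro x hx
    rw [Set.mem_singleton_iff.mp hx]
    exact hAc t ht a ha
  -- solvability
  have hMsolv : Group.IsSolvable M := by
    have hT : IsPGroup p (zpowers t) := (P.2).to_le (zpowers_le.mpr (hAP ht))
    have hTne : zpowers t ≠ ⊥ := by simpa using ht1
    haveI := hloc _ hT hTne
    have hle : M ≤ normalizer ((zpowers t : Subgroup X) : Set X) := by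
      intro x hx
      have hc : Commute x t := (mem_centralizer_iff.mp hx t rfl).symm
      rw [mem_normalizer_iff]
      intro h
      constructor
      · rintro ⟨k, rfl⟩
        have : x * t ^ k * x⁻¹ = t ^ k := by
          show x * t ^ k * x⁻¹ = t ^ k
          rw [(hc.zpow_right k).eq]
          group
        show x * t ^ k * x⁻¹ ∈ _
        rw [this]
        exact ⟨k, rfl⟩
      · rintro ⟨k, hk⟩
        have h3 : h = t ^ k := by
          have h4 : t ^ k = x * h * x⁻¹ := hk
          have h5 : x * t ^ k * x⁻¹ = t ^ k := by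
            rw [(hc.zpow_right k).eq]
            group
          have h6 : x * h * x⁻¹ = x * t ^ k * x⁻¹ := by rw [h5, h4]
          have h7 := mul_right_cancel h6
          exact mul_left_cancel h7
        rw [h3]
        exact ⟨k, rfl⟩
    exact Group.isSolvable_of_isSolvable_injective (Subgroup.inclusion_injective hle)
  let L : Subgroup M := pPrimeCore p M
  haveI hLn : L.Normal := pPrimeCore_normal p M
  let G := M ⧸ L
  let π : M →* G := QuotientGroup.mk' L
  have hπs : Function.Surjective π := QuotientGroup.mk'_surjective L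
  have hkerL : ∀ x : M, π x = 1 ↔ x ∈ L := fun x => QuotientGroup.eq_one_iff x
  have hker : ∀ x ∈ π.ker, (orderOf x).Coprime p := by
    intro x hx
    have h1 : x ∈ L := (hkerL x).mp hx
    exact orderOf_coprime_of_mem_pPrimeCore h1
  have hpker : ∀ (x : M) (k : ℕ), x ^ p ^ k = 1 → π x = 1 → x = 1 := by
    intro x k hxk hx1
    have h2 := hker x hx1
    have h4 : orderOf x ∣ p ^ k := orderOf_dvd_of_pow_eq_one hxk
    have h5 : (orderOf x).Coprime (p ^ k) := Nat.Coprime.pow_right _ h2
    exact orderOf_eq_one_iff.mp (Nat.Coprime.eq_one_of_dvd h5 h4)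
  haveI hGf : Finite G := Finite.of_surjective π hπs
  haveI hGsolv : Group.IsSolvable G := Group.isSolvable_of_surjective hπs
  have hcore : pPrimeCore p G = ⊥ := pPrimeCore_quotient_eq_bot
  let V : Subgroup G := pCore p G
  have hVn : V.Normal := pCore_normal p G
  have hVp : IsPGroup p V := pCore_isPGroup
  have hVC : centralizer (V : Set G) ≤ V := SolvableCharP.centralizer_pCore_le p hcore
  let A₁ : Subgroup M := A.subgroupOf M
  let P₁ : Subgroup M := (P : Subgroup X).subgroupOf M
  let R₁ : Subgroup M := R.subgroupOf M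
  have hAp : IsPGroup p A := (P.2).to_le hAP
  have hA₁p : IsPGroup p A₁ := hAp.comap_subtype
  have hP₁p : IsPGroup p P₁ := (P.2).comap_subtype
  have hR₁q : IsPGroup q R₁ := hRq.comap_subtype
  let Ab : Subgroup G := A₁.map π
  let Pb : Subgroup G := P₁.map π
  let Rb : Subgroup G := R₁.map π
  have hAbp : IsPGroup p Ab := hA₁p.map π
  have hRbq : IsPGroup q Rb := hR₁q.map π
  have hPbp : IsPGroup p Pb := hP₁p.map π
  have hAbc : ∀ a ∈ Ab, ∀ b ∈ Ab, a * b = b * a := by
    rintro _ ⟨a, ha, rfl⟩ _ ⟨b, hb, rfl⟩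
    rw [← map_mul, ← map_mul]
    congr 1
    apply Subtype.ext
    exact hAc _ ha _ hb
  have hnorm1 : ∀ (H : Subgroup X) (a : M), (a : X) ∈ normalizer (H : Set X) →
      π a ∈ normalizer ((H.subgroupOf M).map π : Set G) := by
    intro H a ha
    refine Subgroup.le_normalizer_map π ⟨a, ?_, rfl⟩
    show a ∈ normalizer ((H.subgroupOf M : Subgroup M) : Set M)
    rw [mem_normalizer_iff]
    intro h
    exact mem_normalizer_iff.mp ha h
  have hAbR : Ab ≤ normalizer (Rb : Set G) := by
    rintro _ ⟨a, ha, rfl⟩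
    exact hnorm1 R a (hAR ha)
  let W₀ : Subgroup G := Pb ⊓ V
  have hW₀V : W₀ ≤ V := inf_le_right
  have hW₀A : W₀ ≤ normalizer (Ab : Set G) := by
    rintro _ ⟨⟨x, hx, rfl⟩, -⟩
    exact hnorm1 A x (hPA hx)
  have hGX : Nat.card G ∣ Nat.card X :=
    (Core.Basic.card_dvd_of_surjective π hπs).trans (Subgroup.card_subgroup_dvd_card M)
  have hGodd : Odd (Nat.card G) := Odd.of_dvd_nat hX hGX
  -- the index bound
  have hidx' : Nat.card V ≤ p ^ 2 * Nat.card W₀ := by
    let S : Subgroup G := Pb ⊔ V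
    have hSp : IsPGroup p S := hPbp.to_sup_of_normal_right hVp
    have hScard : Nat.card S ≤ Nat.card P := by
      obtain ⟨n, hn⟩ := IsPGroup.iff_card.mp hSp
      have h1 : Nat.card S ∣ Nat.card X := (Subgroup.card_subgroup_dvd_card S).trans hGX
      have h2 := P.pow_dvd_card_of_pow_dvd_card (hn ▸ h1)
      rw [hn]
      exact Nat.le_of_dvd Nat.card_pos h2
    have hPbcard : Nat.card Pb = Nat.card ((P : Subgroup X) ⊓ M : Subgroup X) := by
      have hinj : Function.Injective (π.comp P₁.subtype) := by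
        rw [injective_iff_map_eq_one]
        rintro ⟨x, hx⟩ hx1
        apply Subtype.ext
        obtain ⟨k, hk⟩ := hP₁p ⟨x, hx⟩
        have h3 : x ^ p ^ k = 1 := by
          have := congrArg Subtype.val hk
          simpa using this
        exact hpker x k h3 hx1
      have e : Pb = (π.comp P₁.subtype).range := by
        ext y
        constructor
        · rintro ⟨x, hx, rfl⟩
          exact ⟨⟨x, hx⟩, rfl⟩
        · rintro ⟨⟨x, hx⟩, rfl⟩
          exact ⟨x, hx, rfl⟩
      have e1 : Nat.card Pb = Nat.card P₁ := by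
        rw [e]
        exact (Nat.card_congr (MonoidHom.ofInjective hinj).toEquiv).symm
      rw [e1]
      have e2 : P₁ = ((P : Subgroup X) ⊓ M).subgroupOf M := by
        rw [Subgroup.inf_subgroupOf_right]
      rw [e2]
      exact Nat.card_congr (subgroupOfEquivOfLe (inf_le_right : (P : Subgroup X) ⊓ M ≤ M)).toEquiv
    have hprod := Cfsg.Agent.Lib.QuadAct.Basic.card_sup_mul_card_inf_of_le_normalizer Pb V
      (by
        intro x _
        rw [mem_normalizer_iff]
        intro h
        exact ⟨fun hh => hVn.conj_mem h hh x, fun hh => by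
          have := hVn.conj_mem _ hh x⁻¹
          simpa [mul_assoc] using this⟩)
    have h1 : Nat.card Pb * Nat.card V ≤ Nat.card Pb * (p ^ 2 * Nat.card W₀) := by
      rw [← hprod]
      calc Nat.card S * Nat.card W₀ ≤ Nat.card P * Nat.card W₀ := Nat.mul_le_mul_right _ hScard
        _ ≤ (p ^ 2 * Nat.card ((P : Subgroup X) ⊓ M : Subgroup X)) * Nat.card W₀ :=
            Nat.mul_le_mul_right _ hidx
        _ = Nat.card Pb * (p ^ 2 * Nat.card W₀) := by rw [hPbcard]; ring
    exact Nat.le_of_mul_le_mul_left h1 Nat.card_pos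
  -- fixed points
  have hCVA : ∀ v ∈ V, (∀ a ∈ Ab, v * a = a * v) → v ∈ Ab := by
    intro v hv hva
    have hWp : IsPGroup p (Ab ⊔ V : Subgroup G) := hAbp.to_sup_of_normal_right hVp
    obtain ⟨S, hSp, hAS, hSW⟩ := exists_lift π hπs hker A₁ hA₁p (Ab ⊔ V) hWp le_sup_left
    have hvS : v ∈ S.map π := by
      rw [hSW]
      exact (le_sup_right : V ≤ Ab ⊔ V) hv
    obtain ⟨s, hs, rfl⟩ := hvS
    have hsA : ∀ a : M, a ∈ A₁ → s * a = a * s := by
      intro a ha
      have h1 := hva (π a) ⟨a, ha, rfl⟩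
      have hc : s * a * s⁻¹ * a⁻¹ ∈ S :=
        S.mul_mem (S.mul_mem (S.mul_mem hs (hAS ha)) (S.inv_mem hs)) (S.inv_mem (hAS ha))
      obtain ⟨k, hk⟩ := hSp ⟨_, hc⟩
      have h3 : (s * a * s⁻¹ * a⁻¹) ^ p ^ k = 1 := by
        have := congrArg Subtype.val hk
        simpa using this
      have h4 : π (s * a * s⁻¹ * a⁻¹) = 1 := by
        simp only [map_mul, map_inv]
        rw [h1]
        group
      have h5 := hpker _ k h3 h4
      calc s * a = (s * a * s⁻¹ * a⁻¹) * (a * s) := by group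
        _ = a * s := by rw [h5, one_mul]
    -- `s` commutes with `A`
    have hs₀A : ∀ a ∈ A, (s : X) * a = a * (s : X) := by
      intro a ha
      have h1 := hsA ⟨a, hAM ha⟩ ha
      exact congrArg Subtype.val h1
    have hs₀N : (s : X) ∈ normalizer (A : Set X) := by
      rw [mem_normalizer_iff]
      intro h
      constructor
      · intro hh
        have : (s : X) * h * (s : X)⁻¹ = h := by rw [hs₀A h hh]; group
        rwa [this]
      · intro hh
        have h2 : (s : X) * h * (s : X)⁻¹ ∈ A := hh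
        have h3 := hs₀A _ h2
        have h4 : h = (s : X) * h * (s : X)⁻¹ := by
          have h5 : (s : X) * ((s : X) * h * (s : X)⁻¹) = ((s : X) * h * (s : X)⁻¹) * (s : X) := h3
          have h6 : (s : X) * ((s : X) * h * (s : X)⁻¹) = (s : X) * h := by
            rw [h5]
            group
          exact (mul_left_cancel h6).symm
        rwa [h4]
    obtain ⟨k, hk⟩ := hSp ⟨s, hs⟩
    have hsk : (s : X) ^ p ^ k = 1 := by
      have h1 := congrArg Subtype.val hk
      have h2 := congrArg Subtype.val h1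
      simpa using h2
    obtain ⟨g, hgN, hgP⟩ := exists_conj_mem P (normalizer (A : Set X)) hPA s hs₀N hsk
    have hgC : g * (s : X) * g⁻¹ ∈ centralizer (A : Set X) := by
      rw [mem_centralizer_iff]
      intro a ha
      have h1 : g⁻¹ * a * g⁻¹⁻¹ ∈ A := (mem_normalizer_iff.mp (inv_mem hgN) _).mp ha
      have h2 := hs₀A _ h1
      simp only [inv_inv] at h2
      calc a * (g * (s : X) * g⁻¹) = g * ((g⁻¹ * a * g) * (s : X)) * g⁻¹ := by group
        _ = g * ((s : X) * (g⁻¹ * a * g)) * g⁻¹ := by rw [h2]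
        _ = (g * (s : X) * g⁻¹) * a := by group
    have hyA : g * (s : X) * g⁻¹ ∈ A := by
      rw [← hCA]
      exact ⟨hgP, hgC⟩
    have hsAm : (s : X) ∈ A := by
      have := (mem_normalizer_iff.mp (inv_mem hgN) _).mp hyA
      have e : g⁻¹ * (g * (s : X) * g⁻¹) * g⁻¹⁻¹ = (s : X) := by group
      rwa [e] at this
    exact ⟨s, hsAm, rfl⟩
  -- apply the abstract lemma
  have hR : Rb = ⊥ := AL (q := q) hGodd hqp V hVn hVp hVC Ab hAbp hAbc Rb hRbq hAbR W₀ hW₀V hidx' hW₀A hCVA
  intro r hr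
  have hrM : r ∈ M := hRt hr
  have h1 : π ⟨r, hrM⟩ ∈ Rb := ⟨⟨r, hrM⟩, hr, rfl⟩
  rw [hR, Subgroup.mem_bot] at h1
  exact ⟨⟨r, hrM⟩, (hkerL _).mp h1, rfl⟩

end Cfsg.Agent.Lib.CaseTh.ThomKey
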