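/-
Thompson's transitivity theorem, odd-order setting.
-/
import Cfsg.Agent.Lib.CaseTh.ThomKey
import Cfsg.Agent.Lib.PGroups.Basic
import Cfsg.Agent.Lib.Signal.Basic
import Cfsg.Agent.Lib.Coprime.Action
import Cfsg.Agent.Lib.Coprime.SchurZassenhaus
import Cfsg.Agent.S1282

set_option autoImplicit false

namespace Cfsg.Agent.Lib.CaseTh.ThomTrans

open Subgroup Cfsg Cfsg.Agent.Lib.Core.Basic Cfsg.Agent.Lib.CaseTh.ThomKey
  Cfsg.Agent.Lib.Coprime.Action Cfsg.Agent.Lib.Coprime.SchurZassenhaus Cfsg.Agent.Lib.Signal.Basic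

universe u

variable {p q : ℕ} [hp : Fact p.Prime] [hq : Fact q.Prime]

theorem exists_normal_card_of_le {G : Type*} [Group G] [Finite G] (hG : IsPGroup p G) (k : ℕ) :
    ∀ (m : ℕ) (N : Subgroup G), N.Normal → Nat.card N = p ^ m → k ≤ m →
      ∃ L : Subgroup G, L.Normal ∧ L ≤ N ∧ Nat.card L = p ^ k := by
  intro m
  induction m with
  | zero =>
    intro N hN hc hk
    have h0 : k = 0 := by omega
    subst h0
    exact ⟨N, hN, le_rfl, hc⟩
  | succ m ih =>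
    intro N hN hc hk
    rcases Nat.lt_or_ge k (m + 1) with h | h
    · have hbot : ⊥ < N := by
        refine bot_lt_iff_ne_bot.mpr ?_
        rintro rfl
        rw [Subgroup.card_bot] at hc
        have h1 : 1 < p ^ (m + 1) := Nat.one_lt_pow (by omega) hp.out.one_lt
        omega
      haveI := hN
      obtain ⟨L, hLn, -, hLN, hi⟩ := Cfsg.Agent.Lib.PGroups.Basic.exists_normal_relIndex_below hG hbot
      have hcard : Nat.card L * L.relIndex N = Nat.card N := by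
        have := Subgroup.relIndex_mul_relIndex (⊥ : Subgroup G) L N bot_le hLN
        rwa [relIndex_bot_left, relIndex_bot_left] at this
      rw [hi, hc, pow_succ] at hcard
      have hL : Nat.card L = p ^ m := Nat.eq_of_mul_eq_mul_right hp.out.pos hcard
      obtain ⟨L', hL'n, hL'L, hL'c⟩ := ih L hLn hL (by omega)
      exact ⟨L', hL'n, hL'L.trans hLN, hL'c⟩
    · have h0 : k = m + 1 := by omega
      subst h0
      exact ⟨N, hN, le_rfl, hc⟩

theorem exists_E {X : Type*} [Group X] [Finite X] (P B : Subgroup X) (hP : IsPGroup p P) (hBP : B ≤ P)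
    (hPB : P ≤ normalizer (B : Set X)) (hBc : ∀ a ∈ B, ∀ b ∈ B, a * b = b * a)
    (E₀ : Subgroup X) (hE₀B : E₀ ≤ B) (hE₀ : ∀ e ∈ E₀, e ^ p = 1) (hE₀3 : p ^ 3 ≤ Nat.card E₀) :
    ∃ E : Subgroup X, E ≤ B ∧ IsElementaryAbelian p E ∧ P ≤ normalizer (E : Set X) ∧
      Nat.card E = p ^ 3 := by
  let Ω : Subgroup X :=
    { carrier := {b | b ∈ B ∧ b ^ p = 1}
      one_mem' := ⟨B.one_mem, one_pow p⟩
      mul_mem' := by
        rintro a b ⟨ha, hap⟩ ⟨hb, hbp⟩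
        refine ⟨B.mul_mem ha hb, ?_⟩
        have hc : Commute a b := hBc a ha b hb
        rw [hc.mul_pow, hap, hbp, one_mul]
      inv_mem' := by
        rintro a ⟨ha, hap⟩
        exact ⟨B.inv_mem ha, by rw [inv_pow, hap, inv_one]⟩ }
  have hPΩ : ∀ x ∈ P, ∀ w ∈ Ω, x * w * x⁻¹ ∈ Ω := by
    rintro x hx w ⟨hw, hwp⟩
    refine ⟨(mem_normalizer_iff.mp (hPB hx) w).mp hw, ?_⟩
    rw [conj_pow, hwp]
    simp
  let Ω₁ : Subgroup P := Ω.subgroupOf P
  have hΩ₁ : Ω₁.Normal := ⟨fun w hw g => hPΩ g g.2 w hw⟩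
  have hΩP : Ω ≤ P := fun w hw => hBP hw.1
  have hΩ₁c : Nat.card Ω₁ = Nat.card Ω := Nat.card_congr (subgroupOfEquivOfLe hΩP).toEquiv
  obtain ⟨m, hm⟩ := IsPGroup.iff_card.mp (hP.to_le hΩP)
  have h3m : 3 ≤ m := by
    have h1 : Nat.card E₀ ≤ Nat.card Ω := Subgroup.card_le_of_le (fun e he => ⟨hE₀B he, hE₀ e he⟩)
    have h2 : p ^ 3 ≤ p ^ m := hm ▸ hE₀3.trans h1
    exact (Nat.pow_le_pow_iff_right hp.out.one_lt).mp h2
  obtain ⟨L, hLn, hLΩ, hLc⟩ := exists_normal_card_of_le hP 3 m Ω₁ hΩ₁ (hΩ₁c.trans hm) h3m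
  have hmem : ∀ x ∈ L.map P.subtype, x ∈ Ω := by
    rintro _ ⟨y, hy, rfl⟩
    exact hLΩ hy
  refine ⟨L.map P.subtype, fun x hx => (hmem x hx).1, ⟨?_, fun a ha => (hmem a ha).2⟩, ?_, ?_⟩
  · refine ⟨⟨?_⟩⟩
    rintro ⟨a, ha⟩ ⟨b, hb⟩
    exact Subtype.ext (hBc a (hmem a ha).1 b (hmem b hb).1)
  · rw [Subgroup.le_normalizer_iff]
    rintro x hx _ ⟨y, hy, rfl⟩
    exact ⟨(⟨x, hx⟩ : P) * y * (⟨x, hx⟩ : P)⁻¹, hLn.conj_mem y hy _, rfl⟩
  · rw [← hLc]
    exact (Nat.card_congr (Subgroup.equivMapOfInjective L P.subtype P.subtype_injective).toEquiv).symm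

theorem index_bound {X : Type*} [Group X] [Finite X] (P E : Subgroup X) (hP : IsPGroup p P)
    (hPE : P ≤ normalizer (E : Set X)) (hE : Nat.card E = p ^ 3) {e : X} (he : e ∈ E) (he1 : e ≠ 1) :
    Nat.card P ≤ p ^ 2 * Nat.card (P ⊓ centralizer ({e} : Set X) : Subgroup X) := by
  classical
  let S : Subgroup P := (centralizer ({e} : Set X)).subgroupOf P
  have hS : Nat.card S = Nat.card (P ⊓ centralizer ({e} : Set X) : Subgroup X) := by
    have e1 : S = (P ⊓ centralizer ({e} : Set X)).subgroupOf P := by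
      rw [Subgroup.inf_subgroupOf_left]
    rw [e1]
    exact Nat.card_congr (subgroupOfEquivOfLe inf_le_left).toEquiv
  have hPS : S.index * Nat.card S = Nat.card P := Subgroup.index_mul_card S
  let g : P ⧸ S → E := Quotient.lift
    (fun x : P => (⟨(x : X) * e * (x : X)⁻¹, (mem_normalizer_iff.mp (hPE x.2) e).mp he⟩ : E))
    (by
      intro x y hxy
      have h1 : x⁻¹ * y ∈ S := QuotientGroup.leftRel_apply.mp hxy
      have h2 : ((x : X)⁻¹ * y) ∈ centralizer ({e} : Set X) := h1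
      have h3 := mem_centralizer_iff.mp h2 e rfl
      apply Subtype.ext
      show (x : X) * e * (x : X)⁻¹ = (y : X) * e * (y : X)⁻¹
      calc (x : X) * e * (x : X)⁻¹ = (x : X) * (e * ((x : X)⁻¹ * y)) * (y : X)⁻¹ := by group
        _ = (x : X) * (((x : X)⁻¹ * y) * e) * (y : X)⁻¹ := by rw [h3]
        _ = (y : X) * e * (y : X)⁻¹ := by group)
  have hg : ∀ x : P, g (QuotientGroup.mk x) = (⟨(x : X) * e * (x : X)⁻¹, (mem_normalizer_iff.mp (hPE x.2) e).mp he⟩ : E) :=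
    fun _ => rfl
  have hginj : Function.Injective g := by
    intro a b hab
    obtain ⟨x, rfl⟩ := QuotientGroup.mk_surjective a
    obtain ⟨y, rfl⟩ := QuotientGroup.mk_surjective b
    rw [hg, hg] at hab
    have h1 : (x : X) * e * (x : X)⁻¹ = (y : X) * e * (y : X)⁻¹ := congrArg Subtype.val hab
    apply QuotientGroup.eq.mpr
    show ((x : X)⁻¹ * y) ∈ centralizer ({e} : Set X)
    rw [mem_centralizer_iff]
    intro t ht
    rw [Set.mem_singleton_iff.mp ht]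
    calc e * ((x : X)⁻¹ * y) = (x : X)⁻¹ * ((x : X) * e * (x : X)⁻¹) * y := by group
      _ = (x : X)⁻¹ * ((y : X) * e * (y : X)⁻¹) * y := by rw [h1]
      _ = ((x : X)⁻¹ * y) * e := by group
  have hg1 : (1 : E) ∉ Set.range g := by
    rintro ⟨a, ha⟩
    obtain ⟨x, rfl⟩ := QuotientGroup.mk_surjective a
    rw [hg] at ha
    have h1 : (x : X) * e * (x : X)⁻¹ = 1 := congrArg Subtype.val ha
    apply he1
    calc e = (x : X)⁻¹ * ((x : X) * e * (x : X)⁻¹) * x := by group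
      _ = 1 := by rw [h1]; group
  have hlt : Nat.card (P ⧸ S) < Nat.card E := by
    haveI := Fintype.ofFinite (P ⧸ S)
    haveI := Fintype.ofFinite E
    rw [Nat.card_eq_fintype_card, Nat.card_eq_fintype_card]
    exact Fintype.card_lt_of_injective_of_notMem g hginj hg1
  have hidx : S.index < p ^ 3 := by
    rw [← hE]
    exact hlt
  obtain ⟨k, hk⟩ := hP.index S
  have hk2 : S.index ≤ p ^ 2 := by
    rw [hk] at hidx ⊢
    have h3 : k < 3 := (Nat.pow_lt_pow_iff_right hp.out.one_lt).mp hidx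
    exact Nat.pow_le_pow_right hp.out.pos (by omega)
  rw [← hPS, hS]
  exact Nat.mul_le_mul_right _ hk2

variable {X : Type u} [Group X]

/-- The relation "conjugate by the centralizer". -/
def Rel (B Q Q' : Subgroup X) : Prop :=
  ∃ c ∈ centralizer (B : Set X), Q.map (MulAut.conj c).toMonoidHom = Q'

theorem rel_refl (B Q : Subgroup X) : Rel B Q Q := by
  refine ⟨1, one_mem _, ?_⟩
  ext x
  simp [Subgroup.mem_map]

theorem rel_symm {B Q Q' : Subgroup X} (h : Rel B Q Q') : Rel B Q' Q := by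
  obtain ⟨c, hc, rfl⟩ := h
  refine ⟨c⁻¹, inv_mem hc, ?_⟩
  ext x
  simp only [Subgroup.mem_map, MulEquiv.coe_toMonoidHom, MulAut.conj_apply]
  constructor
  · rintro ⟨_, ⟨y, hy, rfl⟩, rfl⟩
    convert hy using 1
    group
  · intro hx
    exact ⟨c * x * c⁻¹, ⟨x, hx, rfl⟩, by group⟩

theorem rel_trans {B Q Q' Q'' : Subgroup X} (h : Rel B Q Q') (h' : Rel B Q' Q'') : Rel B Q Q'' := by
  obtain ⟨c, hc, rfl⟩ := h
  obtain ⟨d, hd, rfl⟩ := h'
  refine ⟨d * c, mul_mem hd hc, ?_⟩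
  rw [Subgroup.map_map]
  congr 1
  ext z
  simp [MulAut.conj_apply]

/-- Conjugates by the centralizer are still normalized. -/
theorem le_normalizer_conj {B Q : Subgroup X} {c : X} (hc : c ∈ centralizer (B : Set X))
    (hB : B ≤ normalizer (Q : Set X)) : B ≤ normalizer (Q.map (MulAut.conj c).toMonoidHom : Set X) := by
  rw [Subgroup.le_normalizer_iff]
  rintro b hb _ ⟨u, hu, rfl⟩
  refine ⟨b * u * b⁻¹, (mem_normalizer_iff.mp (hB hb) u).mp hu, ?_⟩
  simp only [MulEquiv.coe_toMonoidHom, MulAut.conj_apply]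
  have h1 : b * c = c * b := mem_centralizer_iff.mp hc b hb
  have h2 : c⁻¹ * b⁻¹ = b⁻¹ * c⁻¹ := by
    rw [← mul_inv_rev, ← mul_inv_rev, h1]
  calc c * (b * u * b⁻¹) * c⁻¹ = (c * b) * u * (b⁻¹ * c⁻¹) := by group
    _ = (b * c) * u * (c⁻¹ * b⁻¹) := by rw [h1, h2]
    _ = b * (c * u * c⁻¹) * b⁻¹ := by group

theorem le_normalizer_inf {B Q R : Subgroup X} (h₁ : B ≤ normalizer (Q : Set X))
    (h₂ : B ≤ normalizer (R : Set X)) : B ≤ normalizer ((Q ⊓ R : Subgroup X) : Set X) := by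
  rw [Subgroup.le_normalizer_iff]
  rintro b hb v ⟨hv1, hv2⟩
  exact mem_inf.mpr ⟨(mem_normalizer_iff.mp (h₁ hb) v).mp hv1, (mem_normalizer_iff.mp (h₂ hb) v).mp hv2⟩

theorem le_normalizer_sup {B Q R : Subgroup X} (h₁ : B ≤ normalizer (Q : Set X))
    (h₂ : B ≤ normalizer (R : Set X)) : B ≤ normalizer ((Q ⊔ R : Subgroup X) : Set X) := by
  rw [Subgroup.le_normalizer_iff]
  intro b hb v hv
  exact conj_mem_sup (fun x hx => (mem_normalizer_iff.mp (h₁ hb) x).mp hx)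
    (fun x hx => (mem_normalizer_iff.mp (h₂ hb) x).mp hx) hv

variable [Finite X]

/-- **The transitivity theorem**, inductive form. -/
theorem transitivity_aux (hX : Odd (Nat.card X)) (hqp : q ≠ p)
    (hloc : ∀ T : Subgroup X, IsPGroup p T → T ≠ ⊥ → Group.IsSolvable (normalizer (T : Set X)))
    (P : Sylow p X) (B : Subgroup X) (hBP : B ≤ P) (hPB : (P : Subgroup X) ≤ normalizer (B : Set X))
    (hBc : ∀ a ∈ B, ∀ b ∈ B, a * b = b * a)
    (hCB : (P : Subgroup X) ⊓ centralizer (B : Set X) = B)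
    (E : Subgroup X) (hEB : E ≤ B) (hE : IsElementaryAbelian p E) (hE3 : p ^ 3 ≤ Nat.card E)
    (hidx : ∀ e ∈ E, e ≠ 1 → Nat.card P ≤ p ^ 2 * Nat.card ((P : Subgroup X) ⊓ centralizer ({e} : Set X) : Subgroup X)) :
    ∀ D Q₁ Q₂ : Subgroup X, Q₁ ⊓ Q₂ = D →
      IsPGroup q Q₁ → B ≤ normalizer (Q₁ : Set X) →
      (∀ R : Subgroup X, IsPGroup q R → B ≤ normalizer (R : Set X) → Q₁ ≤ R → R = Q₁) →
      IsPGroup q Q₂ → B ≤ normalizer (Q₂ : Set X) →
      (∀ R : Subgroup X, IsPGroup q R → B ≤ normalizer (R : Set X) → Q₂ ≤ R → R = Q₂) →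
      Rel B Q₁ Q₂ := by
  have hBp : IsPGroup p B := P.2.to_le hBP
  have hBsolv : Group.IsSolvable B := isSolvable_of_isPGroup hBp
  intro D
  induction D using WellFoundedGT.induction with
  | ind D ih =>
    intro Q₁ Q₂ hD hq₁ hB₁ hm₁ hq₂ hB₂ hm₂
    by_cases hne₁ : D = Q₁
    · have hle : Q₁ ≤ Q₂ := by
        rw [← hne₁, ← hD]; exact inf_le_right
      rw [hm₁ Q₂ hq₂ hB₂ hle]
      exact rel_refl _ _
    by_cases hne₂ : D = Q₂
    · have hle : Q₂ ≤ Q₁ := by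
        rw [← hne₂, ← hD]; exact inf_le_left
      rw [← hm₂ Q₁ hq₁ hB₁ hle]
      exact rel_refl _ _
    obtain ⟨e, he, he1, hn₁, hn₂⟩ := Cfsg.Agent.S1282.result p E hE hE3 q hqp Q₁ Q₂ hq₁ hq₂
      (hEB.trans hB₁) (hEB.trans hB₂) (by rw [hD]; exact hne₁) (by rw [hD]; exact hne₂)
    rw [hD] at hn₁ hn₂
    obtain ⟨u₁, hu₁, hu₁D⟩ := SetLike.not_le_iff_exists.mp hn₁
    obtain ⟨u₂, hu₂, hu₂D⟩ := SetLike.not_le_iff_exists.mp hn₂
    have heB : e ∈ B := hEB he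
    have hDQ₁ : D ≤ Q₁ := hD ▸ inf_le_left
    have hDQ₂ : D ≤ Q₂ := hD ▸ inf_le_right
    have hBD : B ≤ normalizer (D : Set X) := hD ▸ le_normalizer_inf hB₁ hB₂
    have hDq : IsPGroup q D := hq₁.to_le hDQ₁
    set M : Subgroup X := centralizer ({e} : Set X) with hMdef
    have hBM : B ≤ M := by
      intro a ha
      rw [hMdef, mem_centralizer_iff]
      intro x hx
      rw [Set.mem_singleton_iff.mp hx]
      exact hBc e heB a ha
    have hBMn : B ≤ normalizer (M : Set X) := hBM.trans Subgroup.le_normalizer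
    set L : Subgroup X := (pPrimeCore p M).map M.subtype with hLdef
    have hLcard : Nat.card L = Nat.card (pPrimeCore p M) :=
      (Nat.card_congr (Subgroup.equivMapOfInjective _ M.subtype M.subtype_injective).toEquiv).symm
    have hLcop : ¬ p ∣ Nat.card L := by
      rw [hLcard]
      intro h
      have h1 : (Nat.card (pPrimeCore p M)).Coprime p := pPrimeCore_coprime
      have h2 := Nat.dvd_gcd h dvd_rfl
      rw [Nat.Coprime.gcd_eq_one h1] at h2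
      exact hp.out.one_lt.ne' (Nat.dvd_one.mp h2)
    have hBL : B ≤ normalizer (L : Set X) := by
      rw [Subgroup.le_normalizer_iff]
      rintro b hb _ ⟨y, hy, rfl⟩
      haveI : (pPrimeCore p M).Normal := pPrimeCore_normal p M
      exact ⟨(⟨b, hBM hb⟩ : M) * y * (⟨b, hBM hb⟩ : M)⁻¹, Normal.conj_mem this y hy _, rfl⟩
    set Y : Subgroup X := L ⊓ normalizer (D : Set X) with hYdef
    have hBY : B ≤ normalizer (Y : Set X) := le_normalizer_inf hBL (hBD.trans Subgroup.le_normalizer)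
    set K : Subgroup X := D ⊔ Y with hKdef
    have hBK : B ≤ normalizer (K : Set X) := le_normalizer_sup hBD hBY
    have hKp : ¬ p ∣ Nat.card K := by
      apply not_dvd_card_sup_of_le_normalizer hp.out inf_le_right
      · intro h
        obtain ⟨k, hk⟩ := IsPGroup.iff_card.mp hDq
        rw [hk] at h
        exact hqp ((Nat.prime_dvd_prime_iff_eq hp.out hq.out).mp (hp.out.dvd_of_dvd_pow h)).symm
      · intro h
        exact hLcop (h.trans (Subgroup.card_dvd_of_le inf_le_left))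
    have hcop : (Nat.card B).Coprime (Nat.card K) := coprime_card_of_isPGroup_of_not_dvd hBp hKp
    -- the two `q`-subgroups
    have step : ∀ Q : Subgroup X, IsPGroup q Q → B ≤ normalizer (Q : Set X) → D ≤ Q → ∀ u, u ∈
        normalizer (D : Set X) ⊓ Q ⊓ centralizer ({e} : Set X) →
        ∃ V : Subgroup X, V ≤ K ∧ IsPGroup q V ∧ B ≤ normalizer (V : Set X) ∧ D ≤ V ∧ u ∈ V ∧ V ≤ Q := by
      intro Q hQq hQB hDQ u hu
      refine ⟨Q ⊓ K, inf_le_right, hQq.to_le inf_le_left, le_normalizer_inf hQB hBK,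
        le_inf hDQ le_sup_left, ?_, inf_le_left⟩
      have hu' := hu
      obtain ⟨⟨hun, huQ⟩, huC⟩ := hu'
      refine mem_inf.mpr ⟨huQ, ?_⟩
      refine mem_sup_right (mem_inf.mpr ⟨?_, hun⟩)
      have hUq : IsPGroup q ((normalizer (D : Set X) ⊓ Q ⊓ centralizer ({e} : Set X) : Subgroup X)) :=
        hQq.to_le (inf_le_left.trans inf_le_right)
      have hUB : B ≤ normalizer ((normalizer (D : Set X) ⊓ Q ⊓ centralizer ({e} : Set X) : Subgroup X) : Set X) :=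
        le_normalizer_inf (le_normalizer_inf (hBD.trans Subgroup.le_normalizer) hQB) hBMn
      exact key_lemma hX hqp hloc P B hBP hPB hBc hCB e heB he1 (hidx e he he1) _ hUq inf_le_right hUB hu
    obtain ⟨V₁, hV₁K, hV₁q, hV₁A, hDV₁, huV₁, hV₁Q⟩ := step Q₁ hq₁ hB₁ hDQ₁ u₁ hu₁
    obtain ⟨V₂, hV₂K, hV₂q, hV₂A, hDV₂, huV₂, hV₂Q⟩ := step Q₂ hq₂ hB₂ hDQ₂ u₂ hu₂
    obtain ⟨T₁, hT₁, hT₁A, hVT₁⟩ := exists_invariant_sylowIn_ge hBK hcop (Or.inl hBsolv) hV₁K hV₁q hV₁A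
    obtain ⟨T₂, hT₂, hT₂A, hVT₂⟩ := exists_invariant_sylowIn_ge hBK hcop (Or.inl hBsolv) hV₂K hV₂q hV₂A
    obtain ⟨c, ⟨hcK, hcC⟩, hcT⟩ := invariant_sylowIn_conj hBK hcop (Or.inl hBsolv) hT₁ hT₂ hT₁A hT₂A
    -- maximal overgroups
    have exists_max : ∀ T : Subgroup X, IsPGroup q T → B ≤ normalizer (T : Set X) →
        ∃ S : Subgroup X, T ≤ S ∧ IsPGroup q S ∧ B ≤ normalizer (S : Set X) ∧
          ∀ R : Subgroup X, IsPGroup q R → B ≤ normalizer (R : Set X) → S ≤ R → R = S := by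
      intro T hT hTB
      obtain ⟨S, hTS, hmax⟩ := Finite.exists_le_maximal
        (p := fun R : Subgroup X => IsPGroup q R ∧ B ≤ normalizer (R : Set X)) (a := T) ⟨hT, hTB⟩
      refine ⟨S, hTS, hmax.prop.1, hmax.prop.2, ?_⟩
      intro R hRq hRB hSR
      exact le_antisymm (hmax.le_of_ge ⟨hRq, hRB⟩ hSR) hSR
    obtain ⟨S₁, hTS₁, hS₁q, hS₁B, hS₁m⟩ := exists_max T₁ hT₁.2.1 hT₁A
    obtain ⟨S₂, hTS₂, hS₂q, hS₂B, hS₂m⟩ := exists_max T₂ hT₂.2.1 hT₂A
    have hlt : ∀ F : Subgroup X, D ≤ F → ∀ u ∉ D, u ∈ F → D < F := by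
      intro F hF u hu huF
      exact lt_of_le_of_ne hF (fun h => hu (h ▸ huF))
    have hR₁ : Rel B Q₁ S₁ := by
      have hu : u₁ ∈ Q₁ ⊓ S₁ := mem_inf.mpr ⟨hV₁Q huV₁, hTS₁ (hVT₁ huV₁)⟩
      have hDE : D ≤ Q₁ ⊓ S₁ := le_inf hDQ₁ (hDV₁.trans (hVT₁.trans hTS₁))
      exact ih _ (hlt _ hDE u₁ hu₁D hu) Q₁ S₁ rfl hq₁ hB₁ hm₁ hS₁q hS₁B hS₁m
    have hR₂ : Rel B Q₂ S₂ := by
      have hu : u₂ ∈ Q₂ ⊓ S₂ := mem_inf.mpr ⟨hV₂Q huV₂, hTS₂ (hVT₂ huV₂)⟩
      have hDE : D ≤ Q₂ ⊓ S₂ := le_inf hDQ₂ (hDV₂.trans (hVT₂.trans hTS₂))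
      exact ih _ (hlt _ hDE u₂ hu₂D hu) Q₂ S₂ rfl hq₂ hB₂ hm₂ hS₂q hS₂B hS₂m
    -- the conjugate of `S₁`
    set S₁' := S₁.map (MulAut.conj c).toMonoidHom with hS₁'
    have hRc : Rel B S₁ S₁' := ⟨c, hcC, rfl⟩
    have hS₁'q : IsPGroup q S₁' := hS₁q.map _
    have hS₁'B : B ≤ normalizer (S₁' : Set X) := le_normalizer_conj hcC hS₁B
    have hS₁'m : ∀ R : Subgroup X, IsPGroup q R → B ≤ normalizer (R : Set X) → S₁' ≤ R → R = S₁' := by
      intro R hRq hRB hle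
      have hR' : B ≤ normalizer (R.map (MulAut.conj c⁻¹).toMonoidHom : Set X) :=
        le_normalizer_conj (inv_mem hcC) hRB
      have hle' : S₁ ≤ R.map (MulAut.conj c⁻¹).toMonoidHom := by
        intro x hx
        refine ⟨c * x * c⁻¹, hle ⟨x, hx, rfl⟩, ?_⟩
        show c⁻¹ * (c * x * c⁻¹) * c⁻¹⁻¹ = x
        group
      have h1 := hS₁m _ (hRq.map _) hR' hle'
      rw [hS₁', ← h1]
      ext x
      simp only [Subgroup.mem_map, MulEquiv.coe_toMonoidHom, MulAut.conj_apply]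
      constructor
      · intro hx
        exact ⟨c⁻¹ * x * c, ⟨x, hx, by group⟩, by group⟩
      · rintro ⟨_, ⟨y, hy, rfl⟩, rfl⟩
        convert hy using 1
        group
    have hT₂S : T₂ ≤ S₁' := by
      intro x hx
      rw [← hcT] at hx
      rw [conj_smul_eq_map] at hx
      obtain ⟨y, hy, rfl⟩ := hx
      exact ⟨y, hTS₁ hy, rfl⟩
    have hR₃ : Rel B S₁' S₂ := by
      have hu : u₂ ∈ S₁' ⊓ S₂ := mem_inf.mpr ⟨hT₂S (hVT₂ huV₂), hTS₂ (hVT₂ huV₂)⟩
      have hDE : D ≤ S₁' ⊓ S₂ :=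
        le_inf (hDV₂.trans (hVT₂.trans hT₂S)) (hDV₂.trans (hVT₂.trans hTS₂))
      exact ih _ (hlt _ hDE u₂ hu₂D hu) S₁' S₂ rfl hS₁'q hS₁'B hS₁'m hS₂q hS₂B hS₂m
    exact rel_trans hR₁ (rel_trans hRc (rel_trans hR₃ (rel_symm hR₂)))

end Cfsg.Agent.Lib.CaseTh.ThomTrans
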