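/-
Pairs of transvections in characteristic `p`: either the product `y x⁻¹` is unipotent or a suitable
word has even order. Used for odd order groups with cyclic derived subgroup of a Sylow subgroup.
-/
import Mathlib.Algebra.Ring.Basic
import Mathlib.Algebra.Module.LinearMap.End
import Mathlib.Data.ZMod.Basic
import Mathlib.Algebra.Module.ZMod
import Mathlib.GroupTheory.OrderOfElement
import Mathlib.Tactic.Abel
import Mathlib.Tactic.NoncommRing
import Mathlib.Data.Nat.Choose.Dvd
import Mathlib.FieldTheory.Finite.Basic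

set_option autoImplicit false

namespace Cfsg.Agent.Lib.CaseTh.Transvection

section RingIdentities

variable {R : Type*} [Ring R]

/-- The `SL₂` word identities: if `x² = y² = 0` and `xyx = -x`, `yxy = -y` then
`h = (1+x)(1+y)(1+x)` has `h⁴ = 1` and `h = 1` only if `x = y = 0`. -/
theorem sl2_word (x y : R) (hxx : x * x = 0) (hyy : y * y = 0) (hxyx : x * y * x = -x)
    (hyxy : y * x * y = -y) :
    ((1 + x) * (1 + y) * (1 + x)) ^ 4 = 1 ∧ ((1 + x) * (1 + y) * (1 + x) = 1 → x = 0 ∧ y = 0) := by
  have hxx' : ∀ u, x * (x * u) = 0 := fun u => by rw [← mul_assoc, hxx, zero_mul]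
  have hyy' : ∀ u, y * (y * u) = 0 := fun u => by rw [← mul_assoc, hyy, zero_mul]
  have hxyx1 : x * (y * x) = -x := by rw [← mul_assoc, hxyx]
  have hyxy1 : y * (x * y) = -y := by rw [← mul_assoc, hyxy]
  have hxyx' : ∀ u, x * (y * (x * u)) = -(x * u) := fun u => by
    rw [← mul_assoc, ← mul_assoc, hxyx, neg_mul]
  have hyxy' : ∀ u, y * (x * (y * u)) = -(y * u) := fun u => by
    rw [← mul_assoc, ← mul_assoc, hyxy, neg_mul]
  set h := (1 + x) * (1 + y) * (1 + x) with hh
  have hform : h = 1 + x + y + x * y + y * x := by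
    rw [hh]
    simp only [mul_add, add_mul, mul_one, one_mul, mul_assoc, hxx, hxx', hxyx1, hxyx']
    abel
  have hsq : h * h = 1 + (2 : ℤ) • (x * y + y * x) := by
    rw [hform]
    simp only [mul_add, add_mul, mul_one, one_mul, mul_assoc, hxx, hxx', hyy, hyy', hxyx1, hxyx',
      hyxy1, hyxy', add_zero, zero_add, mul_zero, zero_mul, mul_neg, neg_mul, smul_add, two_smul]
    abel
  refine ⟨?_, ?_⟩
  · have e : h ^ 4 = (h * h) * (h * h) := by
      simp only [pow_succ, pow_zero, one_mul, mul_assoc]
    rw [e, hsq]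
    simp only [mul_add, add_mul, mul_one, one_mul, mul_assoc, hxx, hxx', hyy, hyy', hxyx1, hxyx',
      hyxy1, hyxy', add_zero, zero_add, mul_zero, zero_mul, mul_neg, neg_mul, smul_add, two_smul,
      smul_mul_assoc, mul_smul_comm]
    abel
  · intro h1
    have hT : x + y + x * y + y * x = 0 := by
      have : 1 + (x + y + x * y + y * x) = 1 := by
        calc 1 + (x + y + x * y + y * x) = h := by rw [hform]; abel
          _ = 1 := h1
      simpa using this
    have h2 : x * (x + y + x * y + y * x) = 0 := by rw [hT, mul_zero]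
    simp only [mul_add, hxx, hxx', hxyx1, zero_add, add_zero] at h2
    -- `x y = x`
    have hxy : x * y = x := by
      have : x * y + -x = 0 := h2
      exact add_neg_eq_zero.mp this
    have hx0 : x = 0 := by
      have h3 : x * y * x = x * x := by rw [hxy]
      rw [hxyx, hxx] at h3
      exact neg_eq_zero.mp h3
    refine ⟨hx0, ?_⟩
    rw [hx0] at hT
    simpa using hT

/-- The unipotent case: if `x² = y² = 0`, `xyx = 0`, `yxy = 0` then `n = y - x - yx` has `n³ = 0`. -/
theorem nilpotent_word (x y : R) (hxx : x * x = 0) (hyy : y * y = 0) (hxyx : x * y * x = 0)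
    (hyxy : y * x * y = 0) : (y - x - y * x) * ((y - x - y * x) * (y - x - y * x)) = 0 := by
  have hxx' : ∀ u, x * (x * u) = 0 := fun u => by rw [← mul_assoc, hxx, zero_mul]
  have hyy' : ∀ u, y * (y * u) = 0 := fun u => by rw [← mul_assoc, hyy, zero_mul]
  have hxyx1 : x * (y * x) = 0 := by rw [← mul_assoc, hxyx]
  have hyxy1 : y * (x * y) = 0 := by rw [← mul_assoc, hyxy]
  have hxyx' : ∀ u, x * (y * (x * u)) = 0 := fun u => by
    rw [← mul_assoc, ← mul_assoc, hxyx, zero_mul]
  have hyxy' : ∀ u, y * (x * (y * u)) = 0 := fun u => by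
    rw [← mul_assoc, ← mul_assoc, hyxy, zero_mul]
  simp only [sub_eq_add_neg, mul_add, add_mul, mul_assoc, hxx, hxx', hyy, hyy', hxyx1, hxyx',
    hyxy1, hyxy', add_zero, zero_add, mul_zero, zero_mul, mul_neg, neg_mul, neg_neg, neg_zero]

/-- Powers of `1 + n` with `n³ = 0`. -/
theorem one_add_pow (n : R) (hn : n * (n * n) = 0) (j : ℕ) :
    (1 + n) ^ j = 1 + (j : R) * n + (j.choose 2 : R) * (n * n) := by
  have hn' : n * (n * n) = 0 := hn
  induction j with
  | zero => simp
  | succ j ih =>
    rw [pow_succ, ih]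
    have e : (j + 1).choose 2 = j + j.choose 2 := by
      rw [Nat.choose_succ_succ' j 1]
      simp
    rw [e]
    have hcomm : n * ((j : R)) = (j : R) * n := (Nat.cast_commute j n).symm.eq
    push_cast
    simp only [mul_add, add_mul, mul_one, one_mul, mul_assoc, hn, mul_zero, add_zero]
    abel

/-- If `n³ = 0` and `p` is an odd prime with `p = 0` in `R`, then `(1 + n)^p = 1`. -/
theorem one_add_pow_prime (n : R) (hn : n * (n * n) = 0) (p : ℕ) (hp : p.Prime) (hp2 : p ≠ 2)
    (hpR : (p : R) = 0) : (1 + n) ^ p = 1 := by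
  rw [one_add_pow n hn]
  have h2 : 2 < p := lt_of_le_of_ne hp.two_le (Ne.symm hp2)
  obtain ⟨c, hc⟩ : p ∣ p.choose 2 := hp.dvd_choose_self (by norm_num) h2
  rw [hpR, hc]
  push_cast
  rw [hpR]
  simp

end RingIdentities

section Linear

variable {p : ℕ} [hp : Fact p.Prime] {A : Type*} [AddCommGroup A] [Module (ZMod p) A]

/-- A `p`-element stabilizing a line fixes it pointwise. -/
theorem fix_center (a : Module.End (ZMod p) A) (v : A) (t : ZMod p) (h : a v - v = t • v) (e : ℕ)
    (hae : a ^ (p ^ e) = 1) : a v = v := by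
  have h1 : a v = (1 + t) • v := by
    rw [add_smul, one_smul, ← h]
    abel
  have h2 : ∀ j : ℕ, (a ^ j) v = (1 + t) ^ j • v := by
    intro j
    induction j with
    | zero => simp
    | succ j ih =>
      rw [pow_succ, Module.End.mul_apply, h1, map_smul, ih, smul_smul, pow_succ]
      ring_nf
  have h3 := h2 (p ^ e)
  rw [hae, ZMod.pow_card_pow] at h3
  rw [h1]
  exact h3.symm

/-- Powers of `a` when `(a - 1)² = 0`. -/
theorem pow_of_sq_zero (X : Module.End (ZMod p) A) (hXX : X * X = 0) (j : ℕ) :
    (1 + X) ^ j = 1 + (j : ZMod p) • X := by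
  induction j with
  | zero => simp
  | succ j ih =>
    rw [pow_succ, ih]
    simp only [mul_add, add_mul, mul_one, one_mul, smul_mul_assoc, hXX, smul_zero, add_zero]
    push_cast
    rw [add_smul, one_smul]
    abel

/-- The key lemma on pairs of transvections of odd prime order inside a group of odd order: if
`a`, `b` act as transvections, `a'` is the inverse of `a` and all words `a^k b a^k` have odd order
then `b a'` is unipotent, so that `(b a')^p = 1`. -/
theorem transvection_key (hp2 : p ≠ 2) (a b a' : Module.End (ZMod p) A) (ha'a : a' * a = 1)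
    (v v' : A) (h1 : ∀ u, ∃ k : ZMod p, a u - u = k • v) (h2 : ∀ u, ∃ k : ZMod p, b u - u = k • v')
    (e : ℕ) (hae : a ^ (p ^ e) = 1) (hbe : b ^ (p ^ e) = 1) (m : ℕ) (hm : Odd m)
    (hh : ∀ k : ℕ, (a ^ k * b * a ^ k) ^ m = 1) : (b * a') ^ p = 1 := by
  set X : Module.End (ZMod p) A := a - 1 with hX
  set Y : Module.End (ZMod p) A := b - 1 with hY
  have hXu : ∀ u, X u = a u - u := fun u => rfl
  have hYu : ∀ u, Y u = b u - u := fun u => rfl
  have haX : a = 1 + X := by rw [hX]; abel
  have hbY : b = 1 + Y := by rw [hY]; abel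
  -- centers are fixed
  have hav : a v = v := by
    obtain ⟨t, ht⟩ := h1 v
    exact fix_center a v t ht e hae
  have hbv' : b v' = v' := by
    obtain ⟨t, ht⟩ := h2 v'
    exact fix_center b v' t ht e hbe
  have hXv : X v = 0 := by rw [hXu, hav, sub_self]
  have hYv' : Y v' = 0 := by rw [hYu, hbv', sub_self]
  have hXXz : X * X = 0 := by
    ext u
    obtain ⟨k, hk⟩ := h1 u
    change X (X u) = 0
    rw [hXu u, hk, map_smul, hXv, smul_zero]
  have hYYz : Y * Y = 0 := by
    ext u
    obtain ⟨k, hk⟩ := h2 u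
    change Y (Y u) = 0
    rw [hYu u, hk, map_smul, hYv', smul_zero]
  obtain ⟨c, hc⟩ := h1 v'
  obtain ⟨d, hd⟩ := h2 v
  have hXv' : X v' = c • v := hc
  have hYv : Y v = d • v' := hd
  set l : ZMod p := d * c with hl
  have hXYX : X * Y * X = l • X := by
    ext u
    obtain ⟨k, hk⟩ := h1 u
    change X (Y (X u)) = l • X u
    rw [hXu u, hk, map_smul, map_smul, hYv, map_smul, hXv', smul_smul, smul_smul, smul_smul, hl]
    congr 1
    ring
  have hYXY : Y * X * Y = l • Y := by
    ext u
    obtain ⟨k, hk⟩ := h2 u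
    change Y (X (Y u)) = l • Y u
    rw [hYu u, hk, map_smul, map_smul, hXv', map_smul, hYv, smul_smul, smul_smul, smul_smul, hl]
    congr 1
    ring
  -- the inverse of `a`
  have ha' : a' = 1 - X := by
    have h3 : a * (1 - X) = 1 := by
      rw [haX]
      simp only [mul_sub, add_mul, mul_one, one_mul, hXXz]
      abel
    calc a' = a' * (a * (1 - X)) := by rw [h3, mul_one]
      _ = (a' * a) * (1 - X) := by rw [mul_assoc]
      _ = 1 - X := by rw [ha'a, one_mul]
  have hpR : ((p : ℕ) : Module.End (ZMod p) A) = 0 := by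
    ext u
    change ((p : ℕ) : Module.End (ZMod p) A) u = 0
    rw [Module.End.natCast_apply]
    have : (p : ZMod p) = 0 := ZMod.natCast_self p
    rw [← Nat.cast_smul_eq_nsmul (ZMod p), this, zero_smul]
  by_cases hl0 : l = 0
  · -- unipotent case
    have hXYX0 : X * Y * X = 0 := by rw [hXYX, hl0, zero_smul]
    have hYXY0 : Y * X * Y = 0 := by rw [hYXY, hl0, zero_smul]
    have hn := nilpotent_word X Y hXXz hYYz hXYX0 hYXY0
    have e1 : b * a' = 1 + (Y - X - Y * X) := by
      rw [hbY, ha']
      simp only [mul_sub, add_mul, mul_one, one_mul]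
      abel
    rw [e1]
    exact one_add_pow_prime _ hn p hp.out hp2 hpR
  · -- `SL₂` case
    set k : ZMod p := -l⁻¹ with hk
    have hkl : k * l = -1 := by
      rw [hk, neg_mul, inv_mul_cancel₀ hl0]
    have hk0 : k ≠ 0 := by
      rintro h
      rw [h, zero_mul] at hkl
      exact one_ne_zero (neg_eq_zero.mp hkl.symm)
    set x : Module.End (ZMod p) A := k • X with hx
    have hxx : x * x = 0 := by
      rw [hx, smul_mul_smul_comm, hXXz, smul_zero]
    have hxyx : x * Y * x = -x := by
      have : x * Y * x = (k * k) • (X * Y * X) := by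
        rw [hx, smul_mul_assoc, smul_mul_assoc, mul_smul_comm, smul_smul]
      rw [this, hXYX, smul_smul, hx, mul_assoc, hkl, ← neg_smul]
      congr 1
      ring
    have hyxy : Y * x * Y = -Y := by
      have : Y * x * Y = k • (Y * X * Y) := by
        rw [hx, mul_smul_comm, smul_mul_assoc]
      rw [this, hYXY, smul_smul, hkl, neg_smul, one_smul]
    obtain ⟨h4, hone⟩ := sl2_word x Y hxx hYYz hxyx hyxy
    -- choose a natural number representing `k`
    obtain ⟨K, hK⟩ : ∃ K : ℕ, (K : ZMod p) = k := ⟨k.val, ZMod.natCast_zmod_val k⟩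
    have hpow : a ^ K = 1 + x := by
      rw [haX, pow_of_sq_zero X hXXz, hK]
    have hmK := hh K
    rw [hpow, hbY] at hmK
    set w := (1 + x) * (1 + Y) * (1 + x) with hw
    have hw1 : w = 1 := by
      have hd1 : orderOf w ∣ 4 := orderOf_dvd_of_pow_eq_one h4
      have hd2 : orderOf w ∣ m := orderOf_dvd_of_pow_eq_one hmK
      have hcop : Nat.Coprime 4 m := by
        have : Nat.Coprime (2 ^ 2) m :=
          Nat.Coprime.pow_left 2 (Nat.coprime_two_left.mpr hm)
        simpa using this
      exact orderOf_eq_one_iff.mp (Nat.eq_one_of_dvd_coprimes hcop hd1 hd2)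
    obtain ⟨hx0, hY0⟩ := hone hw1
    have hX0 : X = 0 := by
      have : k • X = 0 := hx0
      exact (smul_eq_zero.mp this).resolve_left hk0
    have e1 : b * a' = 1 := by
      rw [hbY, ha', hX0, hY0]
      simp
    rw [e1, one_pow]

end Linear

end Cfsg.Agent.Lib.CaseTh.Transvection
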