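/-
Multiplicative form of `transvection_key`.
-/
import Cfsg.Agent.Lib.CaseTh.Transvection
import Mathlib.Algebra.Group.TypeTags.Hom
import Mathlib.Algebra.Group.Subgroup.ZPowers.Basic

set_option autoImplicit false

namespace Cfsg.Agent.Lib.CaseTh.TransvectionBridge

open Cfsg.Agent.Lib.CaseTh.Transvection

/-- Additive form. -/
theorem bridge_add {A : Type*} [AddCommGroup A] (p : ℕ) [hp : Fact p.Prime] [Module (ZMod p) A]
    {Γ : Type*} [Group Γ] (hp2 : p ≠ 2)
    (ρ : Γ → A →+ A) (hone : ∀ u, ρ 1 u = u) (hmul : ∀ g h u, ρ (g * h) u = ρ g (ρ h u))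
    (x y : Γ) (e : ℕ) (hx : x ^ (p ^ e) = 1) (hy : y ^ (p ^ e) = 1)
    (v v' : A) (h1 : ∀ u, ∃ k : ZMod p, ρ x u - u = k • v) (h2 : ∀ u, ∃ k : ZMod p, ρ y u - u = k • v')
    (m : ℕ) (hm : Odd m) (hΓ : ∀ g : Γ, g ^ m = 1) (u : A) : ρ ((y * x⁻¹) ^ p) u = u := by
  let L : Γ →* Module.End (ZMod p) A :=
    { toFun := fun g => (ρ g).toZModLinearMap p
      map_one' := by
        ext a
        exact hone a
      map_mul' := by
        intro g h
        ext a
        exact hmul g h a }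
  have hLv : ∀ g (a : A), L g a = ρ g a := fun _ _ => rfl
  have key := transvection_key (p := p) (A := A) hp2 (L x) (L y) (L x⁻¹)
    (by rw [← map_mul, inv_mul_cancel, map_one])
    v v'
    (by
      intro a
      obtain ⟨k, hk⟩ := h1 a
      exact ⟨k, hk⟩)
    (by
      intro a
      obtain ⟨k, hk⟩ := h2 a
      exact ⟨k, hk⟩)
    e (by rw [← map_pow, hx, map_one]) (by rw [← map_pow, hy, map_one]) m hm
    (by
      intro k
      rw [← map_pow, ← map_mul, ← map_mul, ← map_pow, hΓ, map_one])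
  rw [← map_mul, ← map_pow] at key
  have h3 := congrArg (fun f : Module.End (ZMod p) A => f u) key
  exact h3

/-- Pairs of elements of an odd order group acting on an elementary abelian group as transvections. -/
theorem bridge {V : Type*} [CommGroup V] {Γ : Type*} [Group Γ] (p : ℕ) [hp : Fact p.Prime]
    (hp2 : p ≠ 2) (hV : ∀ u : V, u ^ p = 1)
    (ρ : Γ → V →* V) (hone : ∀ u, ρ 1 u = u) (hmul : ∀ g h u, ρ (g * h) u = ρ g (ρ h u))
    (x y : Γ) (e : ℕ) (hx : x ^ (p ^ e) = 1) (hy : y ^ (p ^ e) = 1)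
    (v v' : V) (h1 : ∀ u, ∃ k : ℤ, ρ x u * u⁻¹ = v ^ k) (h2 : ∀ u, ∃ k : ℤ, ρ y u * u⁻¹ = v' ^ k)
    (m : ℕ) (hm : Odd m) (hΓ : ∀ g : Γ, g ^ m = 1) (u : V) : ρ ((y * x⁻¹) ^ p) u = u := by
  have hA : ∀ a : Additive V, p • a = 0 := by
    intro a
    change Additive.ofMul ((Additive.toMul a) ^ p) = 0
    rw [hV]
    rfl
  letI : Module (ZMod p) (Additive V) := AddCommGroup.zmodModule hA
  have hcast : ∀ (k : ℤ) (w : V),
      ((k : ZMod p) • Additive.ofMul w : Additive V) = Additive.ofMul (w ^ k) := by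
    intro k w
    rw [Int.cast_smul_eq_zsmul]
    rfl
  have key := bridge_add (A := Additive V) p hp2 (fun g => MonoidHom.toAdditive (ρ g))
    (fun a => hone (Additive.toMul a)) (fun g h a => hmul g h (Additive.toMul a)) x y e hx hy
    (Additive.ofMul v) (Additive.ofMul v')
    (by
      intro a
      obtain ⟨k, hk⟩ := h1 (Additive.toMul a)
      refine ⟨(k : ZMod p), ?_⟩
      rw [hcast, ← hk, sub_eq_add_neg]
      rfl)
    (by
      intro a
      obtain ⟨k, hk⟩ := h2 (Additive.toMul a)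
      refine ⟨(k : ZMod p), ?_⟩
      rw [hcast, ← hk, sub_eq_add_neg]
      rfl)
    m hm hΓ (Additive.ofMul u)
  exact key

end Cfsg.Agent.Lib.CaseTh.TransvectionBridge
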